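import Cfsg.Agent.Lib.Char.Degree
import Cfsg.Agent.Lib.Char.Ito

/-!
# Counting characters: transport along isomorphisms, groups with an inverted cyclic subgroup
of index two
-/

set_option autoImplicit false
set_option linter.unusedSectionVars false

namespace Cfsg.Agent.Lib.GL2.McKayA

open Cfsg
open Cfsg.Agent.Lib.Char.Basic Cfsg.Agent.Lib.Char.Ortho Cfsg.Agent.Lib.Char.Complete
open Cfsg.Agent.Lib.Char.Linear Cfsg.Agent.Lib.Char.Degree

open scoped commutatorElement

universe u v

/-- The number of irreducible characters with degree satisfying `P`. -/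
noncomputable def cnt (P : ℕ → Prop) (H : Type u) [Group H] : ℕ :=
  Nat.card {χ : IrrCharacter H // P (charDegree (χ : H → ℂ))}

lemma cnt_def (P : ℕ → Prop) (H : Type u) [Group H] :
    cnt P H = Nat.card {χ : IrrCharacter H // P (charDegree (χ : H → ℂ))} := rfl

section Transport

variable {H : Type u} {K : Type v} [Group H] [Group K] [Finite H] [Finite K]

/-- Composition with an isomorphism. -/
noncomputable def irrComp (e : H ≃* K) (χ : IrrCharacter K) : IrrCharacter H :=
  ⟨(χ : K → ℂ) ∘ e, isIrrCharacter_comp e.toMonoidHom e.surjective χ.2⟩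

lemma charDegree_comp (e : H ≃* K) (χ : K → ℂ) : charDegree (χ ∘ e) = charDegree χ := by
  simp [charDegree]

/-- The count is invariant under isomorphisms. -/
theorem cnt_congr (P : ℕ → Prop) (e : H ≃* K) : cnt P K = cnt P H := by
  refine Nat.card_congr (Equiv.subtypeEquiv
    { toFun := irrComp e
      invFun := irrComp e.symm
      left_inv := ?_
      right_inv := ?_ } ?_)
  · intro χ
    apply Subtype.ext
    funext x
    simp [irrComp]
  · intro χ
    apply Subtype.ext
    funext x
    simp [irrComp]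
  · intro χ
    change _ ↔ P (charDegree ((χ : K → ℂ) ∘ e))
    rw [charDegree_comp]

theorem cnt_eq_of_eq {G : Type u} [Group G] (P : ℕ → Prop) {A B : Subgroup G} (h : A = B) :
    cnt P A = cnt P B := by
  subst h
  rfl

end Transport

section Dih

variable {H : Type u} [Group H] [Finite H]

lemma degree_dvd_index {χ : H → ℂ} (hχ : IsIrrCharacter H χ) (A : Subgroup H) [A.Normal]
    (hA : ∀ a ∈ A, ∀ b ∈ A, a * b = b * a) : charDegree χ ∣ A.index := by
  obtain ⟨n, ρ, hρ, rfl⟩ := hχ
  rw [charDegree_character]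
  have := hρ
  exact Cfsg.Agent.Lib.Char.Ito.finrank_dvd_index_of_abelian_normal ρ A hA

variable (A : Subgroup H) (hcyc : IsCyclic A) (hidx : A.index = 2) (w : H) (hw : w ∉ A)
  (hinv : ∀ a ∈ A, w * a * w⁻¹ = a⁻¹) (heven : Even (Nat.card A))

include hcyc in
lemma comm_of_cyc : ∀ a ∈ A, ∀ b ∈ A, a * b = b * a := by
  intro a ha b hb
  have h1 := (IsCyclic.isMulCommutative (α := A)).is_comm.comm ⟨a, ha⟩ ⟨b, hb⟩
  exact congrArg Subtype.val h1

include hidx hw in
lemma mem_or_mul (x : H) : x ∈ A ∨ x * w⁻¹ ∈ A := by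
  by_cases hx : x ∈ A
  · exact Or.inl hx
  · right
    rw [Subgroup.mul_mem_iff_of_index_two hidx]
    have h : w⁻¹ ∉ A := fun h => hw (by simpa using A.inv_mem h)
    tauto

include hcyc hidx hw hinv heven in
/-- The index of the commutator subgroup is four. -/
theorem dih_commutator_index : (commutator H).index = 4 := by
  obtain ⟨g, hg⟩ := IsCyclic.exists_generator (α := A)
  set g' : H := (g : H) with hg'
  have hg'A : g' ∈ A := g.2
  have hcomm := comm_of_cyc A hcyc
  have hsq : ∀ a ∈ A, a * a ∈ Subgroup.zpowers (g' ^ 2) := by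
    intro a ha
    obtain ⟨k, hk⟩ := Subgroup.mem_zpowers_iff.mp (hg ⟨a, ha⟩)
    have e : a = g' ^ k := by
      have := congrArg Subtype.val hk
      simpa using this.symm
    rw [Subgroup.mem_zpowers_iff]
    refine ⟨k, ?_⟩
    rw [e, ← zpow_natCast, ← zpow_mul, ← zpow_add]
    congr 1
    push_cast
    ring
  have hinv' : ∀ a ∈ A, w * a = a⁻¹ * w := by
    intro a ha
    have := hinv a ha
    rw [mul_inv_eq_iff_eq_mul] at this
    exact this
  have hle : commutator H ≤ Subgroup.zpowers (g' ^ 2) := by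
    rw [commutator_def, Subgroup.commutator_le]
    intro x _ y _
    have hZ := Subgroup.zpowers (g' ^ 2)
    rcases mem_or_mul A hidx w hw x with hx | hx <;> rcases mem_or_mul A hidx w hw y with hy | hy
    · have : ⁅x, y⁆ = 1 := by
        rw [commutatorElement_def, hcomm x hx y hy]
        group
      rw [this]
      exact Subgroup.one_mem _
    · obtain ⟨b, hb, rfl⟩ : ∃ b ∈ A, y = b * w := ⟨y * w⁻¹, hy, by group⟩
      have e : ⁅x, b * w⁆ = x * x := by
        rw [commutatorElement_def]
        have e1 : x * (b * w) * x⁻¹ * (b * w)⁻¹ = x * b * (w * x⁻¹ * w⁻¹) * b⁻¹ := by group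
        rw [e1, hinv _ (A.inv_mem hx), inv_inv, mul_assoc, hcomm x hx b⁻¹ (A.inv_mem hb)]
        rw [mul_assoc x b, ← mul_assoc b, mul_inv_cancel, one_mul]
      rw [e]
      exact hsq x hx
    · obtain ⟨a, ha, rfl⟩ : ∃ a ∈ A, x = a * w := ⟨x * w⁻¹, hx, by group⟩
      have e : ⁅a * w, y⁆ = y⁻¹ * y⁻¹ := by
        rw [commutatorElement_def]
        have e1 : a * w * y * (a * w)⁻¹ * y⁻¹ = a * (w * y * w⁻¹) * a⁻¹ * y⁻¹ := by group
        rw [e1, hinv y hy, hcomm a ha y⁻¹ (A.inv_mem hy)]
        group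
      rw [e]
      exact hsq _ (A.inv_mem hy)
    · obtain ⟨a, ha, rfl⟩ : ∃ a ∈ A, x = a * w := ⟨x * w⁻¹, hx, by group⟩
      obtain ⟨b, hb, rfl⟩ : ∃ b ∈ A, y = b * w := ⟨y * w⁻¹, hy, by group⟩
      have e : ⁅a * w, b * w⁆ = (a * b⁻¹) * (a * b⁻¹) := by
        rw [commutatorElement_def]
        have e1 : a * w * (b * w) * (a * w)⁻¹ * (b * w)⁻¹ =
            a * (w * (b * a⁻¹) * w⁻¹) * b⁻¹ := by group
        rw [e1, hinv _ (A.mul_mem hb (A.inv_mem ha)), mul_inv_rev, inv_inv]
        have h3 := hcomm a ha b⁻¹ (A.inv_mem hb)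
        have h4 : a * (a * b⁻¹) * b⁻¹ = a * ((a * b⁻¹) * b⁻¹) := by group
        have h5 : a * b⁻¹ * (a * b⁻¹) = a * ((b⁻¹ * a) * b⁻¹) := by group
        rw [h4, h5, h3]
      rw [e]
      exact hsq _ (A.mul_mem ha (A.inv_mem hb))
  have hge : Subgroup.zpowers (g' ^ 2) ≤ commutator H := by
    rw [Subgroup.zpowers_le, commutator_def]
    have e : g' ^ 2 = ⁅g', w⁆ := by
      rw [commutatorElement_def]
      have e1 : g' * w * g'⁻¹ * w⁻¹ = g' * (w * g'⁻¹ * w⁻¹) := by group
      rw [e1, hinv _ (A.inv_mem hg'A), inv_inv, sq]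
    rw [e]
    exact Subgroup.commutator_mem_commutator (Subgroup.mem_top _) (Subgroup.mem_top _)
  have heq := le_antisymm hle hge
  rw [heq]
  have hord : orderOf g' = Nat.card A := by
    rw [hg', Subgroup.orderOf_coe]
    exact orderOf_eq_card_of_forall_mem_zpowers hg
  have h1 := Subgroup.card_mul_index (Subgroup.zpowers (g' ^ 2))
  have h2 := Subgroup.card_mul_index A
  rw [hidx] at h2
  rw [Nat.card_zpowers, orderOf_pow' _ (by norm_num), hord] at h1
  obtain ⟨k, hk⟩ := heven
  have hk0 : 0 < k := by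
    have : 0 < Nat.card A := Nat.card_pos
    omega
  have hgcd : Nat.gcd (Nat.card A) 2 = 2 := by
    rw [hk]
    have : k + k = 2 * k := by ring
    rw [this]
    exact Nat.gcd_eq_right (Nat.dvd_mul_right _ _)
  rw [hgcd, ← h2, hk] at h1
  have e2 : (k + k) / 2 = k := by omega
  rw [e2] at h1
  have : k * (Subgroup.zpowers (g' ^ 2)).index = k * 4 := by
    rw [h1]
    ring
  exact Nat.eq_of_mul_eq_mul_left hk0 this

include hcyc hidx hw hinv heven in
/-- The character theory of a group with an inverted cyclic subgroup of index two. -/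
theorem dih_counts :
    (∀ χ : IrrCharacter H, charDegree (χ : H → ℂ) = 1 ∨ charDegree (χ : H → ℂ) = 2) ∧
    cnt (fun d => d = 1) H = 4 ∧ Nat.card (IrrCharacter H) = Nat.card A / 2 + 3 := by
  classical
  have hN : A.Normal := Subgroup.normal_of_index_eq_two hidx
  have hdeg : ∀ χ : IrrCharacter H, charDegree (χ : H → ℂ) = 1 ∨ charDegree (χ : H → ℂ) = 2 := by
    intro χ
    have h1 := degree_dvd_index χ.2 A (comm_of_cyc A hcyc)
    rw [hidx] at h1
    exact (Nat.dvd_prime Nat.prime_two).mp h1
  have hlin : cnt (fun d => d = 1) H = 4 := by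
    rw [← dih_commutator_index A hcyc hidx w hw hinv heven, ← card_linear_eq_index]
    refine Nat.card_congr (Equiv.subtypeEquivRight fun χ => ?_)
    have h2 := charDegree_natCast (isCharacter_of_isIrrCharacter χ.2)
    constructor
    · intro h
      rw [← h2, h]
      simp
    · intro h
      exact charDegree_eq_of_eq_natCast (by rw [h]; simp)
  refine ⟨hdeg, hlin, ?_⟩
  letI := Fintype.ofFinite H
  haveI := finite_irrCharacter (G := H)
  letI := Fintype.ofFinite (IrrCharacter H)
  have hs := sum_charDegree_sq (G := H)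
  have h1 : ∀ χ : IrrCharacter H, charDegree (χ : H → ℂ) ^ 2 =
      4 - 3 * (if charDegree (χ : H → ℂ) = 1 then 1 else 0) := by
    intro χ
    rcases hdeg χ with h | h <;> simp [h]
  have hlin' : (Finset.univ.filter fun χ : IrrCharacter H => charDegree (χ : H → ℂ) = 1).card = 4 := by
    rw [← hlin, cnt_def, Nat.card_eq_fintype_card, Fintype.card_subtype]
  have h2 : ∑ χ : IrrCharacter H, charDegree (χ : H → ℂ) ^ 2 +
      3 * (Finset.univ.filter fun χ : IrrCharacter H => charDegree (χ : H → ℂ) = 1).card =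
      4 * Fintype.card (IrrCharacter H) := by
    rw [Finset.card_eq_sum_ones, Finset.sum_filter, Finset.mul_sum, ← Finset.sum_add_distrib,
      ← Finset.card_univ, Finset.card_eq_sum_ones, Finset.mul_sum]
    refine Finset.sum_congr rfl fun χ _ => ?_
    rcases hdeg χ with h | h <;> simp [h]
  rw [hs, hlin'] at h2
  have h3 := Subgroup.card_mul_index A
  rw [hidx] at h3
  rw [Nat.card_eq_fintype_card (α := IrrCharacter H)]
  rw [← h3] at h2
  omega

end Dih

end Cfsg.Agent.Lib.GL2.McKayA
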