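import Cfsg.Agent.Lib.GL2.McKayA
import Cfsg.Agent.Lib.GL2.IrrSL2

/-!
# The number of irreducible characters of `SL₂(q)`, `q` odd, with degree in a given set
-/

set_option autoImplicit false
set_option linter.unusedSectionVars false

namespace Cfsg.Agent.Lib.GL2.McKayB

open Cfsg
open Cfsg.Agent.Lib.Char.Degree Cfsg.Agent.Lib.GL2.McKayA
open Cfsg.Agent.Lib.GL2.IrrSL2 Cfsg.Agent.Lib.GL2.SL2

variable {F : Type*} [Field F] [Fintype F] [DecidableEq F]

lemma charDegree_eq_natDeg (χ : IrrCharacter (SL2 F)) :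
    charDegree (χ : SL2 F → ℂ) = natDeg χ :=
  charDegree_eq_of_eq_natCast (natDeg_spec χ)

lemma sum_const_of_deg {P : ℕ → Prop} [DecidablePred P] (A : Finset (IrrCharacter (SL2 F))) {d : ℕ}
    (h : ∀ χ ∈ A, natDeg χ = d) :
    ∑ χ ∈ A, (if P (natDeg χ) then 1 else 0) = A.card * (if P d then 1 else 0) := by
  rw [Finset.sum_congr rfl (g := fun _ => if P d then 1 else 0) (fun χ hχ => by rw [h χ hχ])]
  simp

/-- The count of characters. -/
theorem cnt_sl2 (hq : Odd (Fintype.card F)) (P : ℕ → Prop) [DecidablePred P] :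
    cnt P (SL2 F) =
      (if P 1 then 1 else 0) + (if P (Fintype.card F) then 1 else 0) +
      (Fintype.card F - 3) / 2 * (if P (Fintype.card F + 1) then 1 else 0) +
      2 * (if P ((Fintype.card F + 1) / 2) then 1 else 0) +
      (Fintype.card F - 1) / 2 * (if P (Fintype.card F - 1) then 1 else 0) +
      2 * (if P ((Fintype.card F - 1) / 2) then 1 else 0) := by
  classical
  letI := fintypeIrr1 (F := F)
  have hq3 : 3 ≤ Fintype.card F := by
    have := q_gt_one (F := F)
    obtain ⟨k, hk⟩ := hq
    omega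
  obtain ⟨j, hj⟩ : ∃ j, Fintype.card F = 2 * j + 3 := by
    obtain ⟨k, hk⟩ := hq
    exact ⟨k - 1, by omega⟩
  have h3 : (A3 F).card = j := by
    have := two_mul_card_A3 (F := F)
    rw [card_sq_odd hq, hj] at this
    omega
  have hc := counts_odd (F := F) hq
  have hF : (AF F).card = j + 1 := by
    have := hc.1
    omega
  have e0 : cnt P (SL2 F) = ∑ χ : IrrCharacter (SL2 F), (if P (natDeg χ) then 1 else 0) := by
    rw [cnt_def, Nat.card_eq_fintype_card, Fintype.card_subtype, Finset.card_filter]
    refine Finset.sum_congr rfl fun χ _ => ?_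
    rw [charDegree_eq_natDeg]
  rw [e0, sum_partition]
  rw [sum_const_of_deg (A1 F) (d := 1) (fun χ h => natDeg_A1 h), card_A1,
    sum_const_of_deg (A2 F) (d := Fintype.card F) (fun χ h => natDeg_A2 h), card_A2,
    sum_const_of_deg (A3 F) (d := Fintype.card F + 1) (fun χ h => natDeg_A3 h), h3,
    sum_const_of_deg (AP F) (d := (Fintype.card F + 1) / 2) (fun χ h => by
      have := natDeg_AP h
      omega), card_AP_odd hq,
    sum_const_of_deg (AF F) (d := Fintype.card F - 1) (fun χ h => by
      have := natDeg_AF h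
      omega), hF,
    sum_const_of_deg (AM F) (d := (Fintype.card F - 1) / 2) (fun χ h => by
      have := natDeg_AM h
      omega), hc.2]
  have e1 : (Fintype.card F - 3) / 2 = j := by omega
  have e2 : (Fintype.card F - 1) / 2 = j + 1 := by omega
  rw [e1, e2]
  ring

end Cfsg.Agent.Lib.GL2.McKayB
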