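import Cfsg.Agent.Lib.GL2.McKayT
import Cfsg.Agent.Lib.GL2.SL2Values
import Cfsg.Agent.Lib.GL2.Torus3

/-!
# The Borel subgroup of `SL₂(q)`, `q` odd: classes and characters
-/

set_option autoImplicit false
set_option linter.unusedSectionVars false

namespace Cfsg.Agent.Lib.GL2.McKayA

open Cfsg Matrix
open Cfsg.Agent.Lib.GL2.SL2 Cfsg.Agent.Lib.GL2.SL2Classes Cfsg.Agent.Lib.GL2.SL2Values
open Cfsg.Agent.Lib.Char.Complete Cfsg.Agent.Lib.Char.Ortho

variable {F : Type*} [Field F] [Fintype F] [DecidableEq F]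

omit [Fintype F] [DecidableEq F] in
lemma inv_entries (g : SL2 F) :
    ((g⁻¹ : SL2 F) : Matrix (Fin 2) (Fin 2) F) =
      !![(g : Matrix (Fin 2) (Fin 2) F) 1 1, -(g : Matrix (Fin 2) (Fin 2) F) 0 1;
        -(g : Matrix (Fin 2) (Fin 2) F) 1 0, (g : Matrix (Fin 2) (Fin 2) F) 0 0] := by
  rw [Matrix.SpecialLinearGroup.coe_inv, Matrix.adjugate_fin_two]

/-- The upper triangular subgroup. -/
def BB (F : Type*) [Field F] : Subgroup (SL2 F) where
  carrier := {g | (g : Matrix (Fin 2) (Fin 2) F) 1 0 = 0}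
  one_mem' := by simp
  mul_mem' := by
    intro x y hx hy
    simp only [Set.mem_setOf_eq] at hx hy
    simp [mul_entries, hx, hy]
  inv_mem' := by
    intro x hx
    simp only [Set.mem_setOf_eq] at hx
    change ((x⁻¹ : SL2 F) : Matrix (Fin 2) (Fin 2) F) 1 0 = 0
    rw [inv_entries]
    simp [hx]

/-- The upper unitriangular subgroup. -/
def UU (F : Type*) [Field F] : Subgroup (SL2 F) where
  carrier := {g | (g : Matrix (Fin 2) (Fin 2) F) 1 0 = 0 ∧ (g : Matrix (Fin 2) (Fin 2) F) 0 0 = 1}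
  one_mem' := by simp
  mul_mem' := by
    rintro x y ⟨hx, hx'⟩ ⟨hy, hy'⟩
    simp [mul_entries, hx, hy, hx', hy']
  inv_mem' := by
    rintro x ⟨hx, hx'⟩
    have hd := det_eq x
    rw [hx, hx'] at hd
    simp at hd
    change ((x⁻¹ : SL2 F) : Matrix (Fin 2) (Fin 2) F) 1 0 = 0 ∧ ((x⁻¹ : SL2 F) : Matrix (Fin 2) (Fin 2) F) 0 0 = 1
    rw [inv_entries]
    simp [hx, hd]

omit [Fintype F] [DecidableEq F] in
lemma mem_BB {g : SL2 F} : g ∈ BB F ↔ (g : Matrix (Fin 2) (Fin 2) F) 1 0 = 0 := Iff.rfl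

omit [Fintype F] [DecidableEq F] in
lemma mem_UU {g : SL2 F} : g ∈ UU F ↔
    (g : Matrix (Fin 2) (Fin 2) F) 1 0 = 0 ∧ (g : Matrix (Fin 2) (Fin 2) F) 0 0 = 1 := Iff.rfl

omit [Fintype F] [DecidableEq F] in
lemma UU_le_BB : UU F ≤ BB F := fun _ h => h.1

omit [DecidableEq F] in
lemma card_UU : Nat.card (UU F) = Fintype.card F := by
  rw [← Nat.card_eq_fintype_card]
  symm
  refine Nat.card_congr (Equiv.ofBijective (fun b : F => (⟨uu b, by simp [mem_UU]⟩ : UU F)) ⟨?_, ?_⟩)
  · intro a b h
    have := congrArg (fun x : UU F => ((x : SL2 F) : Matrix (Fin 2) (Fin 2) F) 0 1) h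
    simpa using this
  · rintro ⟨g, h1, h2⟩
    refine ⟨(g : Matrix (Fin 2) (Fin 2) F) 0 1, ?_⟩
    apply Subtype.ext
    have hd := det_eq g
    rw [h1, h2] at hd
    simp at hd
    apply ext_sl <;> simp [h1, h2, hd]

omit [Fintype F] [DecidableEq F] in
/-- The upper unitriangular subgroup is commutative. -/
lemma UU_comm {x y : SL2 F} (hx : x ∈ UU F) (hy : y ∈ UU F) : x * y = y * x := by
  obtain ⟨hx1, hx2⟩ := hx
  obtain ⟨hy1, hy2⟩ := hy
  have hdx := det_eq x
  have hdy := det_eq y
  rw [hx1, hx2] at hdx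
  rw [hy1, hy2] at hdy
  simp at hdx hdy
  apply ext_sl <;> simp [mul_entries, hx1, hx2, hy1, hy2, hdx, hdy, add_comm]

omit [Fintype F] [DecidableEq F] in
/-- The normalizer of the upper unitriangular subgroup. -/
theorem normalizer_UU : Subgroup.normalizer ((UU F : Subgroup (SL2 F)) : Set (SL2 F)) = BB F := by
  ext g
  rw [Subgroup.mem_normalizer_iff, mem_BB]
  constructor
  · intro h
    have h1 : g * uu 1 * g⁻¹ ∈ UU F := (h (uu 1)).mp (by simp [mem_UU])
    have h2 := h1.1
    simp only [mul_entries, inv_entries] at h2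
    simp at h2
    have hh : (g : Matrix (Fin 2) (Fin 2) F) 1 0 * (g : Matrix (Fin 2) (Fin 2) F) 1 0 = 0 := by
      linear_combination -h2
    exact mul_self_eq_zero.mp hh
  · intro hg
    have hd := det_eq g
    rw [hg] at hd
    simp at hd
    -- conjugation preserves `UU`
    have key : ∀ x : SL2 F, x ∈ UU F → g * x * g⁻¹ ∈ UU F := by
      rintro x ⟨h1, h2⟩
      have hdx := det_eq x
      rw [h1, h2] at hdx
      simp at hdx
      constructor
      · simp only [mul_entries, inv_entries]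
        simp [hg, h1, h2, hdx]
      · simp only [mul_entries, inv_entries]
        simp [hg, h1, h2, hdx]
        linear_combination hd
    have hginv : g⁻¹ ∈ BB F := (BB F).inv_mem hg
    have key' : ∀ x : SL2 F, x ∈ UU F → g⁻¹ * x * g⁻¹⁻¹ ∈ UU F := by
      rintro x ⟨h1, h2⟩
      have hdx := det_eq x
      rw [h1, h2] at hdx
      simp at hdx
      rw [inv_inv]
      constructor
      · simp only [mul_entries, inv_entries]
        simp [hg, h1, h2, hdx]
      · simp only [mul_entries, inv_entries]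
        simp [hg, h1, h2, hdx]
        linear_combination hd
    intro x
    constructor
    · exact key x
    · intro h
      have := key' _ h
      have e : g⁻¹ * (g * x * g⁻¹) * g⁻¹⁻¹ = x := by group
      rwa [e] at this

section Classes

open Classical in
/-- The three classes of `F` under multiplication by nonzero squares. -/
noncomputable def cls (c : F) : Fin 3 := if c = 0 then 0 else if IsSquare c then 1 else 2

lemma cls_sq_mul {α : F} (hα : α ≠ 0) (c : F) : cls (α ^ 2 * c) = cls c := by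
  unfold cls
  have h1 : α ^ 2 * c = 0 ↔ c = 0 := by simp [hα]
  have h2 : IsSquare (α ^ 2 * c) ↔ IsSquare c := by
    constructor
    · rintro ⟨r, hr⟩
      refine ⟨r / α, ?_⟩
      field_simp
      rw [mul_comm, hr]
      ring
    · rintro ⟨r, rfl⟩
      exact ⟨α * r, by ring⟩
  simp only [h1, h2]

lemma exists_of_cls_eq (hodd : Odd (Fintype.card F)) {c c' : F} (h : cls c = cls c') :
    ∃ α : F, α ≠ 0 ∧ c' = α ^ 2 * c := by
  unfold cls at h
  by_cases h0 : c = 0
  · by_cases h0' : c' = 0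
    · exact ⟨1, one_ne_zero, by simp [h0, h0']⟩
    · rw [if_pos h0, if_neg h0'] at h
      split_ifs at h <;> simp at h
  · by_cases h0' : c' = 0
    · rw [if_neg h0, if_pos h0'] at h
      split_ifs at h <;> simp at h
    · rw [if_neg h0, if_neg h0'] at h
      by_cases hs : IsSquare c
      · by_cases hs' : IsSquare c'
        · obtain ⟨r, rfl⟩ := hs
          obtain ⟨r', rfl⟩ := hs'
          have hr : r ≠ 0 := fun e => h0 (by simp [e])
          have hr' : r' ≠ 0 := fun e => h0' (by simp [e])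
          refine ⟨r' / r, div_ne_zero hr' hr, ?_⟩
          field_simp
        · rw [if_pos hs, if_neg hs'] at h
          simp at h
      · by_cases hs' : IsSquare c'
        · rw [if_neg hs, if_pos hs'] at h
          simp at h
        · obtain ⟨r, hr⟩ := isSquare_mul_of_not hodd h0' h0 hs' hs
          have hr0 : r ≠ 0 := by
            rintro rfl
            simp at hr
            exact hr.elim h0' h0
          refine ⟨r / c, div_ne_zero hr0 h0, ?_⟩
          field_simp
          linear_combination hr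

/-- The class invariant. -/
noncomputable def fB (x : BB F) : F × Fin 3 :=
  open Classical in
  (((x : SL2 F) : Matrix (Fin 2) (Fin 2) F) 0 0,
    if (((x : SL2 F) : Matrix (Fin 2) (Fin 2) F) 0 0) ^ 2 = 1 then
      cls (((x : SL2 F) : Matrix (Fin 2) (Fin 2) F) 0 1) else 0)

lemma fB_of_conj {x y : BB F} (h : IsConj x y) : fB x = fB y := by
  obtain ⟨g, hg⟩ := isConj_iff.mp h
  have e : g * x = y * g := by
    rw [← hg]
    group
  have e' : (g : SL2 F) * x = y * g := congrArg Subtype.val e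
  have hx : ((x : SL2 F) : Matrix (Fin 2) (Fin 2) F) 1 0 = 0 := x.2
  have hy : ((y : SL2 F) : Matrix (Fin 2) (Fin 2) F) 1 0 = 0 := y.2
  have hg0 : ((g : SL2 F) : Matrix (Fin 2) (Fin 2) F) 1 0 = 0 := g.2
  have e00 := congrArg (fun z : SL2 F => (z : Matrix (Fin 2) (Fin 2) F) 0 0) e'
  have e01 := congrArg (fun z : SL2 F => (z : Matrix (Fin 2) (Fin 2) F) 0 1) e'
  simp only [mul_entries, hx, hy, hg0] at e00 e01
  simp at e00 e01
  have hdx := det_eq (x : SL2 F)
  have hdg := det_eq (g : SL2 F)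
  rw [hx] at hdx
  rw [hg0] at hdg
  simp at hdx hdg
  set a := ((x : SL2 F) : Matrix (Fin 2) (Fin 2) F) 0 0 with ha
  set c := ((x : SL2 F) : Matrix (Fin 2) (Fin 2) F) 0 1 with hc
  set d := ((x : SL2 F) : Matrix (Fin 2) (Fin 2) F) 1 1 with hd
  set a' := ((y : SL2 F) : Matrix (Fin 2) (Fin 2) F) 0 0 with ha'
  set c' := ((y : SL2 F) : Matrix (Fin 2) (Fin 2) F) 0 1 with hc'
  set α := ((g : SL2 F) : Matrix (Fin 2) (Fin 2) F) 0 0 with hα
  set γ := ((g : SL2 F) : Matrix (Fin 2) (Fin 2) F) 0 1 with hγ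
  set δ := ((g : SL2 F) : Matrix (Fin 2) (Fin 2) F) 1 1 with hδ
  have hα0 : α ≠ 0 := left_ne_zero_of_mul_eq_one hdg
  have haa : a = a' := by
    have : α * a = α * a' := by linear_combination e00
    exact mul_left_cancel₀ hα0 this
  unfold fB
  rw [← ha, ← hc, ← ha', ← hc', ← haa]
  congr 1
  by_cases hsq : a ^ 2 = 1
  · rw [if_pos hsq, if_pos hsq]
    have hda : d = a := by
      linear_combination (-d) * hsq + a * hdx
    have e2 : c' = α ^ 2 * c := by
      rw [hda, ← haa] at e01
      have : α * c = c' * δ := by linear_combination e01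
      have : α * (α * c) = α * (c' * δ) := by rw [this]
      linear_combination -this - c' * hdg
    rw [e2, cls_sq_mul hα0]
  · rw [if_neg hsq, if_neg hsq]

lemma conj_of_fB (hodd : Odd (Fintype.card F)) {x y : BB F} (h : fB x = fB y) : IsConj x y := by
  have hx : ((x : SL2 F) : Matrix (Fin 2) (Fin 2) F) 1 0 = 0 := x.2
  have hy : ((y : SL2 F) : Matrix (Fin 2) (Fin 2) F) 1 0 = 0 := y.2
  have hdx := det_eq (x : SL2 F)
  have hdy := det_eq (y : SL2 F)
  rw [hx] at hdx
  rw [hy] at hdy
  simp at hdx hdy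
  unfold fB at h
  rw [Prod.mk.injEq] at h
  obtain ⟨h1, h2⟩ := h
  rw [← h1] at h2 hdy
  have hd' : ((x : SL2 F) : Matrix (Fin 2) (Fin 2) F) 1 1 = ((y : SL2 F) : Matrix (Fin 2) (Fin 2) F) 1 1 := by
    have h3 := left_ne_zero_of_mul_eq_one hdx
    have : ((x : SL2 F) : Matrix (Fin 2) (Fin 2) F) 0 0 * ((x : SL2 F) : Matrix (Fin 2) (Fin 2) F) 1 1 =
      ((x : SL2 F) : Matrix (Fin 2) (Fin 2) F) 0 0 * ((y : SL2 F) : Matrix (Fin 2) (Fin 2) F) 1 1 := by
      rw [hdx, hdy]
    exact mul_left_cancel₀ h3 this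
  set a := ((x : SL2 F) : Matrix (Fin 2) (Fin 2) F) 0 0 with ha
  set c := ((x : SL2 F) : Matrix (Fin 2) (Fin 2) F) 0 1 with hc
  set d := ((x : SL2 F) : Matrix (Fin 2) (Fin 2) F) 1 1 with hd
  set c' := ((y : SL2 F) : Matrix (Fin 2) (Fin 2) F) 0 1 with hc'
  have ha0 : a ≠ 0 := left_ne_zero_of_mul_eq_one hdx
  by_cases hsq : a ^ 2 = 1
  · rw [if_pos hsq, if_pos hsq] at h2
    obtain ⟨α, hα, e⟩ := exists_of_cls_eq hodd h2
    let g : BB F := ⟨diagS α hα, by simp [mem_BB]⟩
    apply isConj_of_mul_eq (c := g)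
    apply Subtype.ext
    change diagS α hα * (x : SL2 F) = (y : SL2 F) * diagS α hα
    have hda : d = a := by
      linear_combination (-d) * hsq + a * hdx
    apply ext_sl
    · simp [mul_entries, ← ha, ← h1, hy]
      ring
    · simp [mul_entries, ← hc, ← hc', ← ha, ← h1]
      rw [e]
      field_simp
    · simp [mul_entries, hx, hy]
    · simp [mul_entries, hx, hy, ← hd', ← hd]
      ring
  · have hne : d - a ≠ 0 := by
      intro h3
      apply hsq
      have : d = a := sub_eq_zero.mp h3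
      rw [this] at hdx
      linear_combination hdx
    let γ := (c' - c) / (d - a)
    let g : BB F := ⟨uu γ, by simp [mem_BB]⟩
    apply isConj_of_mul_eq (c := g)
    apply Subtype.ext
    change uu γ * (x : SL2 F) = (y : SL2 F) * uu γ
    apply ext_sl
    · simp [mul_entries, hx, ← ha, ← h1]
    · simp only [mul_entries]
      simp [hx, ← ha, ← hc, ← hc', ← h1, ← hd]
      have : γ * (d - a) = c' - c := by
        simp only [γ]
        field_simp
      linear_combination this
    · simp [mul_entries, hx, hy]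
    · simp [mul_entries, hx, hy, ← hd', ← hd]

/-- The set of values of the invariant. -/
noncomputable def YY (F : Type*) [Field F] [Fintype F] : Finset (F × Fin 3) := by
  classical exact Finset.univ.filter fun p => p.1 ≠ 0 ∧ (p.1 ^ 2 ≠ 1 → p.2 = 0)

omit [DecidableEq F] in
lemma mem_YY {p : F × Fin 3} : p ∈ YY F ↔ p.1 ≠ 0 ∧ (p.1 ^ 2 ≠ 1 → p.2 = 0) := by
  classical
  simp [YY]

omit [DecidableEq F] in
lemma card_YY (hodd : Odd (Fintype.card F)) : (YY F).card = Fintype.card F + 3 := by
  classical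
  have h2 := two_ne_zero_of_odd hodd
  have hs : (Finset.univ.filter fun a : F => a ^ 2 = 1).card = 2 := by
    have := card_sqrt_one_of_two_ne_zero h2
    rw [Nat.card_eq_fintype_card, Fintype.card_subtype] at this
    exact this
  have hz : (Finset.univ.filter fun a : F => a ≠ 0).card = Fintype.card F - 1 := by
    rw [Finset.filter_ne', Finset.card_erase_of_mem (Finset.mem_univ _), Finset.card_univ]
  have e : (YY F).card = ∑ a : F, ((if a ≠ 0 then 1 else 0) + 2 * (if a ^ 2 = 1 then 1 else 0)) := by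
    unfold YY
    rw [Finset.card_filter, Fintype.sum_prod_type]
    refine Finset.sum_congr rfl fun a _ => ?_
    rw [Fin.sum_univ_three]
    by_cases h0 : a = 0
    · simp [h0]
    · by_cases h1 : a ^ 2 = 1
      · simp [h0, h1]
      · simp [h0, h1]
  rw [e, Finset.sum_add_distrib, ← Finset.mul_sum, ← Finset.card_filter, ← Finset.card_filter, hs, hz]
  have hq : 0 < Fintype.card F := Fintype.card_pos
  omega

lemma fB_mem (x : BB F) : fB x ∈ YY F := by
  classical
  unfold fB
  rw [mem_YY]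
  refine ⟨?_, ?_⟩
  · have hx : ((x : SL2 F) : Matrix (Fin 2) (Fin 2) F) 1 0 = 0 := x.2
    have hdx := det_eq (x : SL2 F)
    rw [hx] at hdx
    simp at hdx
    exact left_ne_zero_of_mul_eq_one hdx
  · intro h
    simp only [if_neg h]

/-- An element of the Borel subgroup. -/
def bel (a : F) (ha : a ≠ 0) (c : F) : BB F :=
  ⟨⟨!![a, c; 0, a⁻¹], by simp [det_fin_two, ha]⟩, by
    change !![a, c; 0, a⁻¹] 1 0 = 0
    simp⟩

lemma fB_bel (a : F) (ha : a ≠ 0) (c : F) (h : a ^ 2 = 1) :
    fB (bel a ha c) = (a, cls c) := by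
  unfold fB bel
  simp [h]

lemma fB_bel' (a : F) (ha : a ≠ 0) (c : F) (h : a ^ 2 ≠ 1) :
    fB (bel a ha c) = (a, 0) := by
  unfold fB bel
  simp [h]

/-- The number of classes of the Borel subgroup. -/
theorem card_classes_BB (hodd : Odd (Fintype.card F)) :
    Nat.card (ConjClasses (BB F)) = Fintype.card F + 3 := by
  classical
  rw [← card_YY hodd]
  let Φ : ConjClasses (BB F) → YY F :=
    Quotient.lift (fun x => (⟨fB x, fB_mem x⟩ : YY F)) (fun a b h => Subtype.ext (fB_of_conj h))
  have hΦ : Function.Bijective Φ := by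
    constructor
    · intro a b
      induction a using Quotient.inductionOn with
      | h a =>
        induction b using Quotient.inductionOn with
        | h b =>
          intro h
          have h1 : fB a = fB b := congrArg Subtype.val h
          exact ConjClasses.mk_eq_mk_iff_isConj.mpr (conj_of_fB hodd h1)
    · rintro ⟨⟨a, i⟩, h⟩
      rw [mem_YY] at h
      obtain ⟨h0, h1⟩ := h
      simp only at h0 h1
      by_cases hsq : a ^ 2 = 1
      · have hex : ∃ c : F, cls c = i := by
          obtain ⟨ν, hν⟩ := Cfsg.Agent.Lib.GL2.Torus.exists_nonsq hodd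
          have hν0 : ν ≠ 0 := by
            rintro rfl
            exact hν IsSquare.zero
          fin_cases i
          · exact ⟨0, by simp [cls]⟩
          · exact ⟨1, by simp [cls]⟩
          · refine ⟨ν, ?_⟩
            simp [cls, hν0, hν]
        obtain ⟨c, hc⟩ := hex
        refine ⟨ConjClasses.mk (bel a h0 c), ?_⟩
        apply Subtype.ext
        change fB (bel a h0 c) = (a, i)
        rw [fB_bel a h0 c hsq, hc]
      · refine ⟨ConjClasses.mk (bel a h0 0), ?_⟩
        apply Subtype.ext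
        change fB (bel a h0 0) = (a, i)
        rw [fB_bel' a h0 0 hsq, h1 hsq]
  rw [Nat.card_congr (Equiv.ofBijective Φ hΦ), Nat.card_eq_fintype_card, Fintype.card_coe]

end Classes

section Final

omit [DecidableEq F] in
/-- The case of the characteristic. -/
theorem borel_case (hodd : Odd (Fintype.card F)) (ℓ : ℕ) [hℓ : Fact ℓ.Prime] [CharP F ℓ]
    (S : Sylow ℓ (SL2 F)) :
    cnt (fun d => ¬ ℓ ∣ d) (Subgroup.normalizer ((S : Subgroup (SL2 F)) : Set (SL2 F))) =
      Fintype.card F + 3 := by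
  classical
  have hp : ℓ.Prime := hℓ.out
  obtain ⟨n, -, hn⟩ := FiniteField.card F ℓ
  have hUp : IsPGroup ℓ (UU F) := by
    apply IsPGroup.of_card (n := n)
    rw [card_UU, hn]
  have hq0 : 0 < Fintype.card F := Fintype.card_pos
  have hq1 : 1 < Fintype.card F := Fintype.one_lt_card
  have hdvdq : ℓ ∣ Fintype.card F := by
    rw [hn]
    exact dvd_pow_self ℓ (PNat.ne_zero n)
  have hUi : ¬ ℓ ∣ (UU F).index := by
    have h1 := Subgroup.card_mul_index (UU F)
    rw [card_UU, card_sl2] at h1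
    have h2 := Nat.eq_of_mul_eq_mul_left hq0 h1
    rw [h2]
    intro h
    have h3 : ℓ ∣ Fintype.card F ^ 2 := hdvdq.trans (dvd_pow_self _ (by norm_num))
    have h4 : 1 ≤ Fintype.card F ^ 2 := Nat.one_le_pow _ _ hq0
    have h5 := Nat.dvd_sub h3 h
    have e : Fintype.card F ^ 2 - (Fintype.card F ^ 2 - 1) = 1 := by omega
    rw [e] at h5
    exact hp.one_lt.ne' (Nat.dvd_one.mp h5)
  rw [cnt_sylow _ S (hUp.toSylow hUi)]
  have e : (((hUp.toSylow hUi : Sylow ℓ (SL2 F)) : Subgroup (SL2 F)) : Set (SL2 F)) =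
      ((UU F : Subgroup (SL2 F)) : Set (SL2 F)) := by
    rw [IsPGroup.toSylow_coe]
  have e' : Subgroup.normalizer (((hUp.toSylow hUi : Sylow ℓ (SL2 F)) : Subgroup (SL2 F)) : Set (SL2 F)) =
      BB F := by
    rw [e, normalizer_UU]
  rw [cnt_eq_of_eq _ e', ← card_classes_BB hodd, ← card_irr_eq_card_conjClasses, cnt_def]
  refine Nat.card_congr (Equiv.subtypeUnivEquiv fun χ => ?_)
  -- the degree divides the index of `UU`
  have hle : UU F ≤ Subgroup.normalizer ((UU F : Subgroup (SL2 F)) : Set (SL2 F)) := Subgroup.le_normalizer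
  rw [normalizer_UU] at hle
  let U' : Subgroup (BB F) := (UU F).subgroupOf (BB F)
  haveI hn : U'.Normal := by
    constructor
    rintro ⟨x, hx⟩ hx' ⟨g, hg⟩
    apply Subgroup.mem_subgroupOf.mpr
    have hx2 : x ∈ UU F := Subgroup.mem_subgroupOf.mp hx'
    have hg2 : g ∈ Subgroup.normalizer ((UU F : Subgroup (SL2 F)) : Set (SL2 F)) := by
      rw [normalizer_UU]
      exact hg
    exact (Subgroup.mem_normalizer_iff.mp hg2 x).mp hx2
  have h1 := degree_dvd_index χ.2 U' (by
    rintro ⟨a, ha⟩ ha' ⟨b, hb⟩ hb'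
    apply Subtype.ext
    exact UU_comm (Subgroup.mem_subgroupOf.mp ha') (Subgroup.mem_subgroupOf.mp hb'))
  have h2 : U'.index ∣ (UU F).index := Subgroup.relIndex_dvd_index_of_le hle
  exact fun h => hUi (h.trans (h1.trans h2))

end Final

end Cfsg.Agent.Lib.GL2.McKayA
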