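import Cfsg.Agent.Lib.GL2.McKayA

/-!
# The subgroup `A ∪ A w` for `w` inverting `A`
-/

set_option autoImplicit false
set_option linter.unusedSectionVars false

namespace Cfsg.Agent.Lib.GL2.McKayA

open Cfsg
open Cfsg.Agent.Lib.Char.Basic Cfsg.Agent.Lib.Char.Ortho Cfsg.Agent.Lib.Char.Complete
open Cfsg.Agent.Lib.Char.Linear Cfsg.Agent.Lib.Char.Degree

universe u

variable {G : Type u} [Group G]

/-- The subgroup `A ∪ A w`. -/
def Dih (A : Subgroup G) (w : G) (hw : w * w ∈ A) (hinv : ∀ a ∈ A, w * a * w⁻¹ = a⁻¹) :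
    Subgroup G where
  carrier := {g | g ∈ A ∨ g * w⁻¹ ∈ A}
  one_mem' := Or.inl A.one_mem
  mul_mem' := by
    rintro x y (hx | hx) (hy | hy)
    · exact Or.inl (A.mul_mem hx hy)
    · right
      have e : x * y * w⁻¹ = x * (y * w⁻¹) := by group
      rw [e]
      exact A.mul_mem hx hy
    · right
      have e : x * y * w⁻¹ = (x * w⁻¹) * (w * y * w⁻¹) := by group
      rw [e, hinv y hy]
      exact A.mul_mem hx (A.inv_mem hy)
    · left
      have e : x * y = (x * w⁻¹) * (w * (y * w⁻¹) * w⁻¹) * (w * w) := by group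
      rw [e, hinv _ hy]
      exact A.mul_mem (A.mul_mem hx (A.inv_mem hy)) hw
  inv_mem' := by
    rintro x (hx | hx)
    · exact Or.inl (A.inv_mem hx)
    · right
      have h1 : (x * w⁻¹)⁻¹ = w * (x * w⁻¹) * w⁻¹ := (hinv _ hx).symm
      have e : x⁻¹ * w⁻¹ = w⁻¹ * (x * w⁻¹)⁻¹ * w⁻¹ := by group
      rw [e, h1]
      have e2 : w⁻¹ * (w * (x * w⁻¹) * w⁻¹) * w⁻¹ = (x * w⁻¹) * (w * w)⁻¹ := by group
      rw [e2]
      exact A.mul_mem hx (A.inv_mem hw)

variable (A : Subgroup G) (w : G) (hw : w * w ∈ A) (hinv : ∀ a ∈ A, w * a * w⁻¹ = a⁻¹)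

lemma mem_Dih {g : G} : g ∈ Dih A w hw hinv ↔ g ∈ A ∨ g * w⁻¹ ∈ A := Iff.rfl

lemma le_Dih : A ≤ Dih A w hw hinv := fun _ h => Or.inl h

lemma w_mem_Dih : w ∈ Dih A w hw hinv := Or.inr (by simpa using A.one_mem)

lemma mul_w_mem_Dih {a : G} (ha : a ∈ A) : a * w ∈ Dih A w hw hinv :=
  (Dih A w hw hinv).mul_mem (le_Dih A w hw hinv ha) (w_mem_Dih A w hw hinv)

section Counts

variable [Finite G] (hcyc : IsCyclic A) (heven : Even (Nat.card A)) (hwA : w ∉ A)

include hwA in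
lemma index_subgroupOf_Dih : (A.subgroupOf (Dih A w hw hinv)).index = 2 := by
  rw [Subgroup.index_eq_two_iff]
  refine ⟨⟨w, w_mem_Dih A w hw hinv⟩⁻¹, ?_⟩
  rintro ⟨b, hb⟩
  simp only [Subgroup.mem_subgroupOf, Subgroup.coe_mul, InvMemClass.coe_inv]
  rcases hb with hb | hb
  · refine Or.inr ⟨hb, fun h => hwA ?_⟩
    have e : w = (b * w⁻¹)⁻¹ * b := by group
    rw [e]
    exact A.mul_mem (A.inv_mem h) hb
  · refine Or.inl ⟨hb, fun h => hwA ?_⟩
    have e : w = (b * w⁻¹)⁻¹ * b := by group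
    rw [e]
    exact A.mul_mem (A.inv_mem hb) h

include hwA in
lemma card_Dih : Nat.card (Dih A w hw hinv) = 2 * Nat.card A := by
  have h1 := Subgroup.card_mul_index (A.subgroupOf (Dih A w hw hinv))
  rw [index_subgroupOf_Dih A w hw hinv hwA] at h1
  have h2 : Nat.card (A.subgroupOf (Dih A w hw hinv)) = Nat.card A :=
    Nat.card_congr (Subgroup.subgroupOfEquivOfLe (le_Dih A w hw hinv)).toEquiv
  rw [h2] at h1
  rw [← h1]
  ring

include hcyc heven hwA in
/-- The counts for `A ∪ A w`. -/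
theorem dih_sub_counts :
    (∀ χ : IrrCharacter (Dih A w hw hinv), charDegree (χ : Dih A w hw hinv → ℂ) = 1 ∨
      charDegree (χ : Dih A w hw hinv → ℂ) = 2) ∧
    cnt (fun d => d = 1) (Dih A w hw hinv) = 4 ∧
    Nat.card (IrrCharacter (Dih A w hw hinv)) = Nat.card A / 2 + 3 := by
  have hc : Nat.card (A.subgroupOf (Dih A w hw hinv)) = Nat.card A :=
    Nat.card_congr (Subgroup.subgroupOfEquivOfLe (le_Dih A w hw hinv)).toEquiv
  have hcyc' : IsCyclic (A.subgroupOf (Dih A w hw hinv)) :=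
    isCyclic_of_surjective (Subgroup.subgroupOfEquivOfLe (le_Dih A w hw hinv)).symm
      (MulEquiv.surjective _)
  have := dih_counts (A.subgroupOf (Dih A w hw hinv)) hcyc'
    (index_subgroupOf_Dih A w hw hinv hwA) ⟨w, w_mem_Dih A w hw hinv⟩
    (by simpa [Subgroup.mem_subgroupOf] using hwA)
    (by
      rintro ⟨a, ha⟩ ha'
      apply Subtype.ext
      exact hinv a (Subgroup.mem_subgroupOf.mp ha'))
    (by rwa [hc])
  rwa [hc] at this

include hcyc heven hwA in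
/-- If the prime is odd then all characters count. -/
theorem cnt_dih_odd {ℓ : ℕ} (hℓ : ℓ.Prime) (hℓ2 : ℓ ≠ 2) :
    cnt (fun d => ¬ ℓ ∣ d) (Dih A w hw hinv) = Nat.card A / 2 + 3 := by
  obtain ⟨h1, -, h3⟩ := dih_sub_counts A w hw hinv hcyc heven hwA
  rw [← h3, cnt_def]
  refine Nat.card_congr (Equiv.subtypeUnivEquiv fun χ => ?_)
  rcases h1 χ with h | h <;> rw [h]
  · exact hℓ.one_lt.ne' ∘ Nat.dvd_one.mp
  · intro hd
    exact hℓ2 ((Nat.prime_dvd_prime_iff_eq hℓ Nat.prime_two).mp hd)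

include hcyc heven hwA in
/-- The count for the prime two. -/
theorem cnt_dih_two : cnt (fun d => ¬ 2 ∣ d) (Dih A w hw hinv) = 4 := by
  obtain ⟨h1, h2, -⟩ := dih_sub_counts A w hw hinv hcyc heven hwA
  rw [← h2, cnt_def, cnt_def]
  refine Nat.card_congr (Equiv.subtypeEquivRight fun χ => ?_)
  rcases h1 χ with h | h <;> rw [h] <;> simp

end Counts

end Cfsg.Agent.Lib.GL2.McKayA
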