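import Cfsg.Agent.Lib.GL2.McKayA

/-!
# A group with a normal quaternion subgroup of odd index, where an element moves a line
-/

set_option autoImplicit false
set_option linter.unusedSectionVars false

namespace Cfsg.Agent.Lib.GL2.McKayA

open Cfsg
open Cfsg.Agent.Lib.Char.Basic Cfsg.Agent.Lib.Char.Ortho Cfsg.Agent.Lib.Char.Complete
open Cfsg.Agent.Lib.Char.Linear Cfsg.Agent.Lib.Char.Degree

universe u

variable {H : Type u} [Group H] [Finite H]

/-- The data of a normal quaternion subgroup of odd index. -/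
structure Q8Data (S : Subgroup H) (c w z : H) : Prop where
  hcc : c * c = z
  hww : w * w = z
  hzz : z * z = 1
  hz1 : z ≠ 1
  hz : ∀ y, y * z = z * y
  hcw : w * c * w⁻¹ = c⁻¹
  hcS : c ∈ S
  hwS : w ∈ S
  hS : ∀ g ∈ S, g = 1 ∨ g = z ∨ g = c ∨ g = c⁻¹ ∨ g = w ∨ g = w⁻¹ ∨ g = c * w ∨ g = (c * w)⁻¹
  hcard : Nat.card S = 8
  hodd : Odd S.index
  hstab : ∀ y, (y * c * y⁻¹ = c ∨ y * c * y⁻¹ = c⁻¹) → y ∈ S

namespace Q8Data

variable {S : Subgroup H} {c w z : H} (D : Q8Data S c w z)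

include D

lemma six {x : H} (hx : x ∈ S) (hxx : x * x = z) :
    x = c ∨ x = c⁻¹ ∨ x = w ∨ x = w⁻¹ ∨ x = c * w ∨ x = (c * w)⁻¹ := by
  rcases D.hS x hx with h | h | h
  · exfalso
    rw [h, mul_one] at hxx
    exact D.hz1 hxx.symm
  · exfalso
    rw [h] at hxx
    rw [D.hzz] at hxx
    exact D.hz1 hxx.symm
  · exact h

lemma cw_sq : (c * w) * (c * w) = z := by
  have e : (c * w) * (c * w) = c * (w * c * w⁻¹) * (w * w) := by group
  rw [e, D.hcw, D.hww]
  simp

lemma conj_sq (y : H) : (y * c * y⁻¹) * (y * c * y⁻¹) = z := by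
  have e : (y * c * y⁻¹) * (y * c * y⁻¹) = y * (c * c) * y⁻¹ := by group
  rw [e, D.hcc, D.hz y]
  group

lemma stab_of_sim {y y' : H} (h : y' * c * y'⁻¹ = y * c * y⁻¹ ∨ y' * c * y'⁻¹ = (y * c * y⁻¹)⁻¹) :
    y⁻¹ * y' ∈ S := by
  apply D.hstab
  have e : (y⁻¹ * y') * c * (y⁻¹ * y')⁻¹ = y⁻¹ * (y' * c * y'⁻¹) * y := by group
  rw [e]
  rcases h with h | h
  · left
    rw [h]
    group
  · right
    rw [h]
    group

omit D [Finite H] in
lemma sim_of {e e' a : H} (h : e = a ∨ e = a⁻¹) (h' : e' = a ∨ e' = a⁻¹) : e' = e ∨ e' = e⁻¹ := by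
  rcases h with rfl | rfl <;> rcases h' with rfl | rfl <;> simp

open Classical in
/-- The line of the conjugate of `c`. -/
noncomputable def line (c w : H) (y : H) : Fin 3 :=
  if y * c * y⁻¹ = c ∨ y * c * y⁻¹ = c⁻¹ then 0
  else if y * c * y⁻¹ = w ∨ y * c * y⁻¹ = w⁻¹ then 1 else 2

variable [S.Normal]

lemma conj_mem (y : H) : y * c * y⁻¹ ∈ S := Subgroup.Normal.conj_mem inferInstance c D.hcS y

lemma line_cases (y : H) :
    (line c w y = 0 ∧ (y * c * y⁻¹ = c ∨ y * c * y⁻¹ = c⁻¹)) ∨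
    (line c w y = 1 ∧ (y * c * y⁻¹ = w ∨ y * c * y⁻¹ = w⁻¹)) ∨
    (line c w y = 2 ∧ (y * c * y⁻¹ = c * w ∨ y * c * y⁻¹ = (c * w)⁻¹)) := by
  have hs := D.six (D.conj_mem y) (D.conj_sq y)
  by_cases h1 : y * c * y⁻¹ = c ∨ y * c * y⁻¹ = c⁻¹
  · left
    refine ⟨?_, h1⟩
    unfold line
    rw [if_pos h1]
  · by_cases h2 : y * c * y⁻¹ = w ∨ y * c * y⁻¹ = w⁻¹
    · right
      left
      refine ⟨?_, h2⟩
      unfold line
      rw [if_neg h1, if_pos h2]
    · right
      right
      refine ⟨?_, ?_⟩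
      · unfold line
        rw [if_neg h1, if_neg h2]
      · rcases hs with h | h | h | h | h | h
        · exact absurd (Or.inl h) h1
        · exact absurd (Or.inr h) h1
        · exact absurd (Or.inl h) h2
        · exact absurd (Or.inr h) h2
        · exact Or.inl h
        · exact Or.inr h

lemma line_inj {y y' : H} (h : line c w y = line c w y') : y⁻¹ * y' ∈ S := by
  apply D.stab_of_sim
  rcases D.line_cases y with ⟨h1, h2⟩ | ⟨h1, h2⟩ | ⟨h1, h2⟩ <;>
  rcases D.line_cases y' with ⟨h3, h4⟩ | ⟨h3, h4⟩ | ⟨h3, h4⟩ <;>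
  first
  | exact sim_of h2 h4
  | (rw [h1, h3] at h; exact absurd h (by decide))

lemma index_le : S.index ≤ 3 := by
  rw [Subgroup.index_eq_card]
  have : Function.Injective fun q : H ⧸ S => line c w q.out := by
    intro q q' hq
    have h1 := D.line_inj hq
    have h2 : ((q.out : H) : H ⧸ S) = (q'.out : H) := QuotientGroup.eq.mpr h1
    rwa [QuotientGroup.out_eq', QuotientGroup.out_eq'] at h2
  have h3 := Nat.card_le_card_of_injective _ this
  simpa using h3

lemma index_eq (hne : S ≠ ⊤) : S.index = 3 := by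
  have h1 := D.index_le
  obtain ⟨k, hk⟩ := D.hodd
  have h2 : S.index ≠ 1 := fun h => hne (Subgroup.index_eq_one.mp h)
  omega

lemma sq_mem {y : H} (hne : S ≠ ⊤) (hy : y * y ∈ S) : y ∈ S := by
  have h3 := D.index_eq hne
  have h1 : ((y : H ⧸ S)) ^ Nat.card (H ⧸ S) = 1 := pow_card_eq_one'
  rw [← Subgroup.index_eq_card, h3] at h1
  have h2 : (y : H ⧸ S) * (y : H ⧸ S) = 1 := by
    rw [← QuotientGroup.mk_mul]
    exact (QuotientGroup.eq_one_iff _).mpr hy
  have h4 : (y : H ⧸ S) = 1 := by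
    have e : (y : H ⧸ S) ^ 3 = ((y : H ⧸ S) * (y : H ⧸ S)) * (y : H ⧸ S) := by
      rw [pow_succ, sq]
    rw [e, h2, one_mul] at h1
    exact h1
  exact (QuotientGroup.eq_one_iff _).mp h4

lemma le_commutator (hne : S ≠ ⊤) : S ≤ commutator H := by
  obtain ⟨y, hy⟩ : ∃ y, y ∉ S := by
    by_contra hcon
    push Not at hcon
    exact hne (Subgroup.eq_top_iff' S |>.mpr hcon)
  let p : H →* Abelianization H := Abelianization.of
  have hmem : ∀ x, p x = 1 → x ∈ commutator H := by
    intro x hx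
    rw [← Abelianization.ker_of]
    exact hx
  have hconj : ∀ y x, p (y * x * y⁻¹) = p x := by
    intro y x
    rw [map_mul, map_mul, map_inv, mul_comm (p y), mul_inv_cancel_right]
  have hinv_c : p c⁻¹ = p c := by
    rw [← D.hcw, hconj]
  have hpz : p z = 1 := by
    rw [← D.hcc, map_mul]
    nth_rw 1 [← hinv_c]
    rw [map_inv, inv_mul_cancel]
  have hsq : ∀ x, x * x = z → p x⁻¹ = p x := by
    intro x hx
    rw [map_inv]
    apply inv_eq_of_mul_eq_one_left
    rw [← map_mul, hx, hpz]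
  have hL : ∀ {e a : H}, a * a = z → (e = a ∨ e = a⁻¹) → p e = p a := by
    intro e a ha he
    rcases he with rfl | rfl
    · rfl
    · exact hsq a ha
  set e₁ := y * c * y⁻¹ with he₁
  set e₂ := y * e₁ * y⁻¹ with he₂
  have hn₁ : ¬ (e₁ = c ∨ e₁ = c⁻¹) := fun h => hy (D.hstab y h)
  have hn₂ : ¬ (e₂ = c ∨ e₂ = c⁻¹) := by
    intro h
    apply hy
    apply D.sq_mem hne
    apply D.hstab
    have e : (y * y) * c * (y * y)⁻¹ = e₂ := by
      rw [he₂, he₁]
      group
    rwa [e]
  have hn₃ : ¬ (e₂ = e₁ ∨ e₂ = e₁⁻¹) := by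
    intro h
    apply hn₁
    rcases h with h | h
    · left
      have h1 : y * e₁ * y⁻¹ = y * c * y⁻¹ := h
      exact mul_left_cancel (mul_right_cancel h1)
    · right
      have h1 : y * e₁ * y⁻¹ = y * c⁻¹ * y⁻¹ := by
        rw [← he₂, h, he₁]
        group
      exact mul_left_cancel (mul_right_cancel h1)
  have hs₁ := D.six (D.conj_mem y) (D.conj_sq y)
  have hs₂ := D.six (D.conj_mem y) (D.conj_sq y)
  have hs₂' : e₂ ∈ S := Subgroup.Normal.conj_mem inferInstance e₁ (D.conj_mem y) y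
  have hsq₁ : e₁ * e₁ = z := D.conj_sq y
  have hsq₂ : e₂ * e₂ = z := by
    have e : e₂ * e₂ = y * (e₁ * e₁) * y⁻¹ := by
      rw [he₂]
      group
    rw [e, hsq₁, D.hz y]
    group
  have hs₃ := D.six hs₂' hsq₂
  have hp₁ : p e₁ = p c := hconj y c
  have hp₂ : p e₂ = p c := by
    rw [he₂, hconj, hp₁]
  have hcw2 := D.cw_sq
  have hww := D.hww
  have key : p w = p c ∧ p (c * w) = p c := by
    have c₁ : (e₁ = w ∨ e₁ = w⁻¹) ∨ (e₁ = c * w ∨ e₁ = (c * w)⁻¹) := by
      rcases hs₁ with h | h | h | h | h | h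
      · exact absurd (Or.inl h) hn₁
      · exact absurd (Or.inr h) hn₁
      · exact Or.inl (Or.inl h)
      · exact Or.inl (Or.inr h)
      · exact Or.inr (Or.inl h)
      · exact Or.inr (Or.inr h)
    have c₂ : (e₂ = w ∨ e₂ = w⁻¹) ∨ (e₂ = c * w ∨ e₂ = (c * w)⁻¹) := by
      rcases hs₃ with h | h | h | h | h | h
      · exact absurd (Or.inl h) hn₂
      · exact absurd (Or.inr h) hn₂
      · exact Or.inl (Or.inl h)
      · exact Or.inl (Or.inr h)
      · exact Or.inr (Or.inl h)
      · exact Or.inr (Or.inr h)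
    rcases c₁ with c₁ | c₁ <;> rcases c₂ with c₂ | c₂
    · exact absurd (sim_of c₁ c₂) hn₃
    · exact ⟨(hL hww c₁).symm.trans hp₁, (hL hcw2 c₂).symm.trans hp₂⟩
    · exact ⟨(hL hww c₂).symm.trans hp₂, (hL hcw2 c₁).symm.trans hp₁⟩
    · exact absurd (sim_of c₁ c₂) hn₃
  have hw1 : p w = 1 := by
    have h1 := key.2
    rw [map_mul] at h1
    exact mul_left_cancel (a := p c) (by rw [h1, mul_one])
  have hc1 : p c = 1 := by rw [← key.1, hw1]
  have hcm : c ∈ commutator H := hmem c hc1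
  have hwm : w ∈ commutator H := hmem w hw1
  intro g hg
  rcases D.hS g hg with h | h | h | h | h | h | h | h <;> rw [h]
  · exact Subgroup.one_mem _
  · rw [← D.hcc]
    exact Subgroup.mul_mem _ hcm hcm
  · exact hcm
  · exact Subgroup.inv_mem _ hcm
  · exact hwm
  · exact Subgroup.inv_mem _ hwm
  · exact Subgroup.mul_mem _ hcm hwm
  · exact Subgroup.inv_mem _ (Subgroup.mul_mem _ hcm hwm)

lemma commutator_le (hne : S ≠ ⊤) : commutator H ≤ S := by
  rw [commutator_def, Subgroup.commutator_le]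
  intro x _ y _
  have h3 := D.index_eq hne
  haveI : Fact (Nat.Prime 3) := ⟨Nat.prime_three⟩
  have hcard : Nat.card (H ⧸ S) = 3 := by rw [← Subgroup.index_eq_card, h3]
  haveI : IsCyclic (H ⧸ S) := isCyclic_of_prime_card hcard
  have hcomm := (IsCyclic.isMulCommutative (α := H ⧸ S)).is_comm.comm (x : H ⧸ S) (y : H ⧸ S)
  apply (QuotientGroup.eq_one_iff _).mp
  rw [commutatorElement_def]
  simp only [QuotientGroup.mk_mul, QuotientGroup.mk_inv]
  rw [hcomm]
  group

/-- The count of the odd-degree characters. -/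
theorem count (hne : S ≠ ⊤) : cnt (fun d => ¬ 2 ∣ d) H = 4 := by
  classical
  have h3 := D.index_eq hne
  have hcomm : commutator H = S := le_antisymm (D.commutator_le hne) (D.le_commutator hne)
  have hlin : cnt (fun d => d = 1) H = 3 := by
    have h1 : cnt (fun d => d = 1) H = (commutator H).index := by
      rw [← card_linear_eq_index]
      refine Nat.card_congr (Equiv.subtypeEquivRight fun χ => ?_)
      have h2 := charDegree_natCast (isCharacter_of_isIrrCharacter χ.2)
      constructor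
      · intro h
        rw [← h2, h]
        simp
      · intro h
        exact charDegree_eq_of_eq_natCast (by rw [h]; simp)
    rw [h1, hcomm, h3]
  have hH : Nat.card H = 24 := by
    rw [← Subgroup.card_mul_index S, D.hcard, h3]
  letI := Fintype.ofFinite H
  haveI := finite_irrCharacter (G := H)
  letI := Fintype.ofFinite (IrrCharacter H)
  have hs := sum_charDegree_sq (G := H)
  rw [hH] at hs
  have hd : ∀ χ : IrrCharacter H, charDegree (χ : H → ℂ) = 1 ∨ charDegree (χ : H → ℂ) = 2 ∨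
      charDegree (χ : H → ℂ) = 3 ∨ charDegree (χ : H → ℂ) = 4 := by
    intro χ
    have h1 : charDegree (χ : H → ℂ) ^ 2 ≤ 24 := by
      rw [← hs]
      exact Finset.single_le_sum (f := fun χ : IrrCharacter H => charDegree (χ : H → ℂ) ^ 2)
        (fun _ _ => Nat.zero_le _) (Finset.mem_univ χ)
    have h2 := charDegree_pos χ.2
    have h4 : charDegree (χ : H → ℂ) ≤ 4 := by
      by_contra hc
      push Not at hc
      have : 5 ^ 2 ≤ charDegree (χ : H → ℂ) ^ 2 := Nat.pow_le_pow_left hc 2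
      omega
    omega
  have ha : (Finset.univ.filter fun χ : IrrCharacter H => charDegree (χ : H → ℂ) = 1).card = 3 := by
    rw [← hlin, cnt_def, Nat.card_eq_fintype_card, Fintype.card_subtype]
  have hsum : ∑ χ : IrrCharacter H, charDegree (χ : H → ℂ) ^ 2 =
      (Finset.univ.filter fun χ : IrrCharacter H => charDegree (χ : H → ℂ) = 1).card +
      9 * (Finset.univ.filter fun χ : IrrCharacter H => charDegree (χ : H → ℂ) = 3).card +
      4 * ∑ χ : IrrCharacter H, (if 2 ∣ charDegree (χ : H → ℂ) then (charDegree (χ : H → ℂ) / 2) ^ 2 else 0) := by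
    rw [Finset.card_filter, Finset.card_filter, Finset.mul_sum, Finset.mul_sum,
      ← Finset.sum_add_distrib, ← Finset.sum_add_distrib]
    refine Finset.sum_congr rfl fun χ _ => ?_
    rcases hd χ with h | h | h | h <;> simp [h]
  rw [hs, ha] at hsum
  have hb : (Finset.univ.filter fun χ : IrrCharacter H => charDegree (χ : H → ℂ) = 3).card = 1 := by
    omega
  rw [cnt_def, Nat.card_eq_fintype_card, Fintype.card_subtype]
  have e : (Finset.univ.filter fun χ : IrrCharacter H => ¬ 2 ∣ charDegree (χ : H → ℂ)).card =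
      (Finset.univ.filter fun χ : IrrCharacter H => charDegree (χ : H → ℂ) = 1).card +
      (Finset.univ.filter fun χ : IrrCharacter H => charDegree (χ : H → ℂ) = 3).card := by
    rw [Finset.card_filter, Finset.card_filter, Finset.card_filter, ← Finset.sum_add_distrib]
    refine Finset.sum_congr rfl fun χ _ => ?_
    rcases hd χ with h | h | h | h <;> simp [h]
  rw [e, ha, hb]

end Q8Data

end Cfsg.Agent.Lib.GL2.McKayA
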