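import Cfsg.Agent.Lib.GL2.McKayC
import Cfsg.Agent.Lib.GL2.McKayQ

/-!
# Abstract tori: the normalizers of the Sylow subgroups contained in them
-/

set_option autoImplicit false
set_option linter.unusedSectionVars false

namespace Cfsg.Agent.Lib.GL2.McKayA

open Cfsg

universe u

variable {G : Type u} [Group G] [Finite G]

/-- The count depends only on the prime. -/
theorem cnt_sylow (P : ℕ → Prop) {ℓ : ℕ} [Fact ℓ.Prime] (S S₀ : Sylow ℓ G) :
    cnt P (Subgroup.normalizer ((S : Subgroup G) : Set G)) =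
      cnt P (Subgroup.normalizer ((S₀ : Subgroup G) : Set G)) := by
  obtain ⟨g, rfl⟩ := MulAction.exists_smul_eq G S₀ S
  have e1 : ((g • S₀ : Sylow ℓ G) : Subgroup G) =
      (S₀ : Subgroup G).map (MulAut.conj g).toMonoidHom := by
    rw [Sylow.coe_subgroup_smul]
    rfl
  have e2 := Subgroup.map_equiv_normalizer_eq (S₀ : Subgroup G) (MulAut.conj g)
  have e3 : Subgroup.normalizer (((g • S₀ : Sylow ℓ G) : Subgroup G) : Set G) =
      (Subgroup.normalizer ((S₀ : Subgroup G) : Set G)).map (MulAut.conj g).toMonoidHom := by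
    rw [e1, e2]
  rw [cnt_eq_of_eq P e3]
  exact cnt_congr P (Subgroup.equivMapOfInjective _ _ (MulAut.conj g).injective)

lemma mem_of_sq_mem_of_odd_index {X : Type*} [Group X] [Finite X] (N : Subgroup X) [N.Normal]
    (hodd : Odd N.index) {x : X} (hx : x * x ∈ N) : x ∈ N := by
  obtain ⟨k, hk⟩ := hodd
  have h1 : ((x : X ⧸ N)) ^ Nat.card (X ⧸ N) = 1 := pow_card_eq_one'
  rw [← Subgroup.index_eq_card, hk] at h1
  have h2 : (x : X ⧸ N) * (x : X ⧸ N) = 1 := by
    rw [← QuotientGroup.mk_mul]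
    exact (QuotientGroup.eq_one_iff _).mpr hx
  have h4 : (x : X ⧸ N) = 1 := by
    rw [pow_succ, pow_mul, sq, h2, one_pow, one_mul] at h1
    exact h1
  exact (QuotientGroup.eq_one_iff _).mp h4

/-- Abstract torus data. -/
structure TD (z : G) (T : Subgroup G) (w : G) : Prop where
  zc : ∀ g, g * z = z * g
  zsq : z * z = 1
  z1 : z ≠ 1
  uniq : ∀ g, g * g = 1 → g = 1 ∨ g = z
  cyc : IsCyclic T
  zmem : z ∈ T
  wsq : w * w = z
  inv : ∀ t ∈ T, w * t * w⁻¹ = t⁻¹
  wnot : w ∉ T
  fus : ∀ s ∈ T, s * s ≠ 1 → ∀ g, g * s * g⁻¹ ∈ T → g ∈ T ∨ g * w⁻¹ ∈ T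

namespace TD

variable {z : G} {T : Subgroup G} {w : G} (D : TD z T w)

include D

lemma comm {a b : G} (ha : a ∈ T) (hb : b ∈ T) : a * b = b * a := by
  haveI := D.cyc
  have h1 := (IsCyclic.isMulCommutative (α := T)).is_comm.comm ⟨a, ha⟩ ⟨b, hb⟩
  exact congrArg Subtype.val h1

lemma ww_mem : w * w ∈ T := by
  rw [D.wsq]
  exact D.zmem

lemma even_card : Even (Nat.card T) := by
  have h1 : orderOf (⟨z, D.zmem⟩ : T) = 2 := by
    apply orderOf_eq_prime
    · apply Subtype.ext
      simpa [sq] using D.zsq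
    · intro h
      exact D.z1 (congrArg Subtype.val h)
  have h2 := orderOf_dvd_natCard (⟨z, D.zmem⟩ : T)
  rw [h1] at h2
  exact even_iff_two_dvd.mpr h2

/-- The normalizer of a subgroup of the torus. -/
theorem normalizer_eq (R : Subgroup G) (hR : R ≤ T) {s : G} (hs : s ∈ R) (hss : s * s ≠ 1) :
    Subgroup.normalizer (R : Set G) = Dih T w D.ww_mem D.inv := by
  ext g
  rw [mem_Dih, Subgroup.mem_normalizer_iff]
  constructor
  · intro hg
    exact D.fus s (hR hs) hss g (hR ((hg s).mp hs))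
  · rintro (hg | hg) h
    · by_cases hh : h ∈ T
      · have e : g * h * g⁻¹ = h := by
          rw [D.comm hg hh]
          group
        rw [e]
      · constructor
        · intro h1
          exact absurd (hR h1) hh
        · intro h1
          have h2 : g * h * g⁻¹ ∈ T := hR h1
          exfalso
          apply hh
          have e : h = g⁻¹ * (g * h * g⁻¹) * g := by group
          rw [e]
          exact T.mul_mem (T.mul_mem (T.inv_mem hg) h2) hg
    · obtain ⟨a, ha, rfl⟩ : ∃ a ∈ T, g = a * w := ⟨g * w⁻¹, hg, by group⟩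
      by_cases hh : h ∈ T
      · have e : a * w * h * (a * w)⁻¹ = h⁻¹ := by
          have e1 : a * w * h * (a * w)⁻¹ = a * (w * h * w⁻¹) * a⁻¹ := by group
          rw [e1, D.inv h hh, D.comm ha (T.inv_mem hh)]
          group
        rw [e]
        exact (R.inv_mem_iff).symm
      · constructor
        · intro h1
          exact absurd (hR h1) hh
        · intro h1
          exfalso
          have h2 : a * w * h * (a * w)⁻¹ ∈ T := hR h1
          apply hh
          -- `w h w⁻¹ ∈ T`, hence `h ∈ T`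
          have h3 : w * h * w⁻¹ ∈ T := by
            have e : w * h * w⁻¹ = a⁻¹ * (a * w * h * (a * w)⁻¹) * a := by group
            rw [e]
            exact T.mul_mem (T.mul_mem (T.inv_mem ha) h2) ha
          have h4 := D.inv _ h3
          have h7 : h = (w⁻¹ * w⁻¹) * (w * (w * h * w⁻¹) * w⁻¹) * (w * w) := by group
          rw [h7, h4]
          refine T.mul_mem (T.mul_mem ?_ (T.inv_mem h3)) D.ww_mem
          have e8 : w⁻¹ * w⁻¹ = (w * w)⁻¹ := by group
          rw [e8]
          exact T.inv_mem D.ww_mem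

/-- Odd primes. -/
theorem odd_case {ℓ : ℕ} [hf : Fact ℓ.Prime] (hℓ2 : ℓ ≠ 2) (h1 : ℓ ∣ Nat.card T)
    (h2 : ¬ ℓ ∣ T.index) (S : Sylow ℓ G) :
    cnt (fun d => ¬ ℓ ∣ d) (Subgroup.normalizer ((S : Subgroup G) : Set G)) =
      Nat.card T / 2 + 3 := by
  obtain ⟨P⟩ : Nonempty (Sylow ℓ T) := inferInstance
  have hp : ℓ.Prime := hf.out
  set R : Subgroup G := (P : Subgroup T).map T.subtype with hR
  have hRT : R ≤ T := Subgroup.map_subtype_le _
  have hRp : IsPGroup ℓ R := P.isPGroup'.map T.subtype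
  have hRi : ¬ ℓ ∣ R.index := by
    rw [hR, Subgroup.index_map_subtype, hp.dvd_mul]
    push Not
    exact ⟨P.not_dvd_index, h2⟩
  have hne : (P : Subgroup T) ≠ ⊥ := P.ne_bot_of_dvd_card h1
  obtain ⟨x, hx, hx1⟩ := (Subgroup.ne_bot_iff_exists_ne_one (H := (P : Subgroup T))).mp hne |>.imp
    (fun x hx => hx) |> fun ⟨x, hx⟩ => (⟨(x : T), x.2, fun h => hx (Subtype.ext h)⟩ :
      ∃ x : T, x ∈ (P : Subgroup T) ∧ x ≠ 1)
  have hsR : (x : G) ∈ R := ⟨x, hx, rfl⟩
  have hss : (x : G) * x ≠ 1 := by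
    intro h
    obtain ⟨k, hk⟩ := IsPGroup.iff_orderOf.mp hRp ⟨(x : G), hsR⟩
    have h3 : orderOf (⟨(x : G), hsR⟩ : R) ∣ 2 := by
      apply orderOf_dvd_of_pow_eq_one
      apply Subtype.ext
      simpa [sq] using h
    rw [hk] at h3
    have h4 : k = 0 := by
      by_contra hk0
      have h5 : ℓ ∣ 2 := (dvd_pow_self ℓ hk0).trans h3
      exact hℓ2 ((Nat.prime_dvd_prime_iff_eq hp Nat.prime_two).mp h5)
    rw [h4, pow_zero] at hk
    have h6 : (⟨(x : G), hsR⟩ : R) = 1 := orderOf_eq_one_iff.mp hk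
    apply hx1
    apply Subtype.ext
    have h7 : ((⟨(x : G), hsR⟩ : R) : G) = ((1 : R) : G) := congrArg _ h6
    simpa using h7
  rw [cnt_sylow _ S (hRp.toSylow hRi)]
  have e : (((hRp.toSylow hRi : Sylow ℓ G) : Subgroup G) : Set G) = (R : Set G) := by
    rw [IsPGroup.toSylow_coe]
  rw [cnt_eq_of_eq _ (show Subgroup.normalizer (((hRp.toSylow hRi : Sylow ℓ G) : Subgroup G) : Set G)
    = Dih T w D.ww_mem D.inv by rw [e]; exact D.normalizer_eq R hRT hsR hss)]
  exact cnt_dih_odd T w D.ww_mem D.inv D.cyc D.even_card D.wnot hp hℓ2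

/-- The prime two. -/
theorem two_case (h4 : 4 ∣ Nat.card T) {o : ℕ} (ho : Odd o) (hidx : T.index = 2 * o)
    (S : Sylow 2 G) :
    cnt (fun d => ¬ 2 ∣ d) (Subgroup.normalizer ((S : Subgroup G) : Set G)) = 4 := by
  classical
  haveI : Fact (Nat.Prime 2) := ⟨Nat.prime_two⟩
  obtain ⟨P⟩ : Nonempty (Sylow 2 T) := inferInstance
  set R : Subgroup G := (P : Subgroup T).map T.subtype with hR
  have hRT : R ≤ T := Subgroup.map_subtype_le _
  have hRp : IsPGroup 2 R := P.isPGroup'.map T.subtype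
  have hRcard : Nat.card R = Nat.card P :=
    (Nat.card_congr ((P : Subgroup T).equivMapOfInjective T.subtype T.subtype_injective).toEquiv).symm
  haveI := D.cyc
  have hRcyc : IsCyclic R :=
    isCyclic_of_surjective ((P : Subgroup T).equivMapOfInjective T.subtype T.subtype_injective)
      (MulEquiv.surjective _)
  have hPi : Odd (P : Subgroup T).index := by
    rw [← Nat.not_even_iff_odd, even_iff_two_dvd]
    exact P.not_dvd_index
  have hTR : Nat.card R * (P : Subgroup T).index = Nat.card T := by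
    rw [hRcard]
    exact Subgroup.card_mul_index _
  have h4R : 4 ∣ Nat.card R := by
    rw [← hTR] at h4
    have hc : Nat.Coprime 4 (P : Subgroup T).index := by
      have : Nat.Coprime 2 (P : Subgroup T).index := (Nat.coprime_two_left).mpr hPi
      exact Nat.Coprime.pow_left 2 this
    exact hc.dvd_of_dvd_mul_right h4
  obtain ⟨c₀, hc₀⟩ := IsCyclic.exists_generator (α := R)
  set c : G := (c₀ : G) with hc
  have hcR : c ∈ R := c₀.2
  have hord : orderOf c = Nat.card R := by
    rw [hc, Subgroup.orderOf_coe]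
    exact orderOf_eq_card_of_forall_mem_zpowers hc₀
  have hcc1 : c * c ≠ 1 := by
    intro h
    have h1 : orderOf c ∣ 2 := orderOf_dvd_of_pow_eq_one (by rwa [sq])
    rw [hord] at h1
    have := Nat.le_of_dvd (by norm_num) (h4R.trans h1)
    omega
  have hzR : z ∈ R := by
    have h2 : 2 ∣ Nat.card R := (by norm_num : 2 ∣ 4).trans h4R
    obtain ⟨x, hx⟩ := exists_prime_orderOf_dvd_card' 2 h2
    have h3 : (x : G) * x = 1 := by
      have := pow_orderOf_eq_one x
      rw [hx, sq] at this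
      exact congrArg Subtype.val this
    rcases D.uniq _ h3 with h | h
    · exfalso
      have : x = 1 := Subtype.ext h
      rw [this, orderOf_one] at hx
      omega
    · rw [← h]
      exact x.2
  have hsqC : ∀ t ∈ T, t * t ∈ R → t ∈ R := by
    intro t ht htt
    haveI hPn : (P : Subgroup T).Normal := by
      constructor
      intro n hn g
      have : g * n * g⁻¹ = n := by
        apply Subtype.ext
        have := D.comm g.2 n.2
        simp only [Subgroup.coe_mul, InvMemClass.coe_inv]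
        rw [this]
        group
      rw [this]
      exact hn
    have h1 : (⟨t, ht⟩ : T) * ⟨t, ht⟩ ∈ (P : Subgroup T) := by
      obtain ⟨y, hy, hy2⟩ := htt
      have : y = (⟨t, ht⟩ : T) * ⟨t, ht⟩ := Subtype.ext hy2
      rw [← this]
      exact hy
    have h2 := mem_of_sq_mem_of_odd_index (P : Subgroup T) hPi h1
    exact ⟨_, h2, rfl⟩
  have hwwR : w * w ∈ R := by
    rw [D.wsq]
    exact hzR
  have hinvR : ∀ a ∈ R, w * a * w⁻¹ = a⁻¹ := fun a ha => D.inv a (hRT ha)
  have hwR : w ∉ R := fun h => D.wnot (hRT h)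
  set Q := Dih R w hwwR hinvR with hQ
  have hQcard : Nat.card Q = 2 * Nat.card R := card_Dih R w hwwR hinvR hwR
  have hQp : IsPGroup 2 Q := by
    obtain ⟨m, hm⟩ := IsPGroup.iff_card.mp hRp
    apply IsPGroup.of_card (n := m + 1)
    rw [hQcard, hm, pow_succ]
    ring
  have hQi : Q.index = o * (P : Subgroup T).index := by
    have h1 := Subgroup.card_mul_index Q
    have h2 := Subgroup.card_mul_index T
    rw [hidx, ← hTR] at h2
    rw [hQcard] at h1
    have h3 : 0 < Nat.card R := Nat.card_pos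
    have h5 : (2 * Nat.card R) * Q.index = (2 * Nat.card R) * (o * (P : Subgroup T).index) := by
      rw [h1, ← h2]
      ring
    exact Nat.eq_of_mul_eq_mul_left (by omega) h5
  have hQodd : Odd Q.index := by
    rw [hQi]
    exact ho.mul hPi
  have hQi' : ¬ 2 ∣ Q.index := by
    rw [← even_iff_two_dvd, Nat.not_even_iff_odd]
    exact hQodd
  rw [cnt_sylow _ S (hQp.toSylow hQi')]
  have e : (((hQp.toSylow hQi' : Sylow 2 G) : Subgroup G) : Set G) = (Q : Set G) := by
    rw [IsPGroup.toSylow_coe]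
  have e' : Subgroup.normalizer (((hQp.toSylow hQi' : Sylow 2 G) : Subgroup G) : Set G) =
      Subgroup.normalizer (Q : Set G) := by rw [e]
  rw [cnt_eq_of_eq _ e']
  have hRcyc' : IsCyclic R := hRcyc
  have hReven : Even (Nat.card R) := even_iff_two_dvd.mpr ((by norm_num : 2 ∣ 4).trans h4R)
  have hwQ : w ∈ Q := w_mem_Dih R w hwwR hinvR
  have hcQ : c ∈ Q := le_Dih R w hwwR hinvR hcR
  have hQN : Q ≤ Subgroup.normalizer (Q : Set G) := Subgroup.le_normalizer
  -- an element of the torus normalizing `Q` lies in `R`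
  have hTN : ∀ t ∈ T, t ∈ Subgroup.normalizer (Q : Set G) → t ∈ R := by
    intro t ht hn
    have h1 : t * w * t⁻¹ ∈ Q := (Subgroup.mem_normalizer_iff.mp hn w).mp hwQ
    have e1 : t * w * t⁻¹ = t * (w * t⁻¹ * w⁻¹) * w := by group
    rw [e1, D.inv _ (T.inv_mem ht), inv_inv] at h1
    rcases h1 with h1 | h1
    · exfalso
      apply D.wnot
      have e2 : w = (t * t)⁻¹ * (t * t * w) := by group
      rw [e2]
      exact T.mul_mem (T.inv_mem (T.mul_mem ht ht)) (hRT h1)
    · apply hsqC t ht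
      have e2 : t * t * w * w⁻¹ = t * t := by group
      rwa [e2] at h1
  have hstab : ∀ y ∈ Subgroup.normalizer (Q : Set G), y * c * y⁻¹ ∈ R → y ∈ Q := by
    intro y hy h1
    rcases D.fus c (hRT hcR) hcc1 y (hRT h1) with h2 | h2
    · exact le_Dih R w hwwR hinvR (hTN y h2 hy)
    · have h3 : y * w⁻¹ ∈ Subgroup.normalizer (Q : Set G) :=
        Subgroup.mul_mem _ hy (Subgroup.inv_mem _ (hQN hwQ))
      exact Or.inr (hTN _ h2 h3)
  have hwsqR : ∀ a ∈ R, (a * w) * (a * w) = z := by
    intro a ha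
    have e1 : (a * w) * (a * w) = a * (w * a * w⁻¹) * (w * w) := by group
    rw [e1, hinvR a ha, D.wsq]
    simp
  have hconjsq : ∀ y, (y * c * y⁻¹) * (y * c * y⁻¹) = z → c * c = z := by
    intro y h
    have e1 : (y * c * y⁻¹) * (y * c * y⁻¹) = y * (c * c) * y⁻¹ := by group
    rw [e1] at h
    have e2 : c * c = y⁻¹ * z * y := by
      rw [← h]
      group
    rw [e2, mul_assoc, D.zc y |>.symm, ← mul_assoc]
    simp
  by_cases hQtop : Subgroup.normalizer (Q : Set G) = Q
  · rw [cnt_eq_of_eq _ hQtop]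
    exact cnt_dih_two R w hwwR hinvR hRcyc' hReven hwR
  -- now some element outside `Q` normalizes `Q`, which forces `c * c = z`
  have hcz : c * c = z := by
    by_contra hcz
    apply hQtop
    apply le_antisymm _ hQN
    intro y hy
    have h1 : y * c * y⁻¹ ∈ Q := (Subgroup.mem_normalizer_iff.mp hy c).mp hcQ
    rcases h1 with h1 | h1
    · exact hstab y hy h1
    · exfalso
      apply hcz
      apply hconjsq y
      have := hwsqR _ h1
      have e1 : y * c * y⁻¹ * w⁻¹ * w = y * c * y⁻¹ := by group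
      rwa [e1] at this
  -- the group `R` has order four
  have hc4 : c ^ 4 = 1 := by
    have e1 : c ^ 4 = (c * c) * (c * c) := by
      rw [show (4 : ℕ) = 2 + 2 from rfl, pow_add, sq]
    rw [e1, hcz, D.zsq]
  have hcard4 : Nat.card R = 4 := by
    have h1 : orderOf c ∣ 4 := orderOf_dvd_of_pow_eq_one hc4
    rw [hord] at h1
    exact Nat.dvd_antisymm h1 h4R
  have hRlist : ∀ x ∈ R, x = 1 ∨ x = z ∨ x = c ∨ x = c⁻¹ := by
    intro x hx
    obtain ⟨k, hk⟩ := Subgroup.mem_zpowers_iff.mp (hc₀ ⟨x, hx⟩)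
    have hk' : c ^ k = x := by
      have := congrArg Subtype.val hk
      simpa using this
    have h4' : orderOf c = 4 := by rw [hord, hcard4]
    rw [← hk', ← zpow_mod_orderOf, h4']
    have h5 : k % ((4 : ℕ) : ℤ) = 0 ∨ k % ((4 : ℕ) : ℤ) = 1 ∨ k % ((4 : ℕ) : ℤ) = 2 ∨
        k % ((4 : ℕ) : ℤ) = 3 := by
      have h6 := Int.emod_nonneg k (show ((4 : ℕ) : ℤ) ≠ 0 by norm_num)
      have h7 := Int.emod_lt_of_pos k (show (0 : ℤ) < ((4 : ℕ) : ℤ) by norm_num)
      omega
    rcases h5 with h | h | h | h <;> rw [h]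
    · simp
    · simp
    · right
      left
      rw [← hcz]
      change c ^ (2 : ℤ) = c * c
      rw [zpow_two]
    · right
      right
      right
      have e1 : c ^ (3 : ℤ) * c = 1 := by
        rw [← zpow_add_one]
        exact_mod_cast hc4
      exact eq_inv_of_mul_eq_one_left e1
  -- `Q8Data`
  set N := Subgroup.normalizer (Q : Set G) with hN
  let S' : Subgroup N := Q.subgroupOf N
  haveI : S'.Normal := Subgroup.normal_in_normalizer
  have hcN : c ∈ N := hQN hcQ
  have hwN : w ∈ N := hQN hwQ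
  have hzN : z ∈ N := hQN (le_Dih R w hwwR hinvR hzR)
  have hD : Q8Data S' ⟨c, hcN⟩ ⟨w, hwN⟩ ⟨z, hzN⟩ := by
    refine ⟨Subtype.ext hcz, Subtype.ext D.wsq, Subtype.ext D.zsq, fun h => D.z1 (congrArg Subtype.val h),
      fun y => Subtype.ext (D.zc y), Subtype.ext (hinvR c hcR), ?_, ?_, ?_, ?_, ?_, ?_⟩
    · exact Subgroup.mem_subgroupOf.mpr hcQ
    · exact Subgroup.mem_subgroupOf.mpr hwQ
    · rintro ⟨g, hgN⟩ hg
      have hg' : g ∈ Q := Subgroup.mem_subgroupOf.mp hg
      rcases hg' with h | h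
      · rcases hRlist g h with h | h | h | h
        · exact Or.inl (Subtype.ext h)
        · exact Or.inr (Or.inl (Subtype.ext h))
        · exact Or.inr (Or.inr (Or.inl (Subtype.ext h)))
        · exact Or.inr (Or.inr (Or.inr (Or.inl (Subtype.ext h))))
      · have e1 : z * w = w⁻¹ := by
          apply eq_inv_of_mul_eq_one_left
          rw [mul_assoc, D.wsq, D.zsq]
        have e2 : c⁻¹ * w = (c * w)⁻¹ := by
          have e3 : (c * w) * (c⁻¹ * w) = c * (w * c⁻¹ * w⁻¹) * (w * w) := by group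
          rw [D.inv _ (hRT (R.inv_mem hcR)), inv_inv, D.wsq, hcz, D.zsq] at e3
          exact eq_inv_of_mul_eq_one_right e3
        rcases hRlist _ h with h | h | h | h <;> rw [mul_inv_eq_iff_eq_mul] at h
        · rw [one_mul] at h
          exact Or.inr (Or.inr (Or.inr (Or.inr (Or.inl (Subtype.ext h)))))
        · rw [e1] at h
          exact Or.inr (Or.inr (Or.inr (Or.inr (Or.inr (Or.inl (Subtype.ext h))))))
        · exact Or.inr (Or.inr (Or.inr (Or.inr (Or.inr (Or.inr (Or.inl (Subtype.ext h)))))))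
        · rw [e2] at h
          exact Or.inr (Or.inr (Or.inr (Or.inr (Or.inr (Or.inr (Or.inr (Subtype.ext h)))))))
    · have : Nat.card S' = Nat.card Q :=
        Nat.card_congr (Subgroup.subgroupOfEquivOfLe hQN).toEquiv
      rw [this, hQcard, hcard4]
    · have h1 : S'.index ∣ Q.index := Subgroup.relIndex_dvd_index_of_le hQN
      exact Odd.of_dvd_nat hQodd h1
    · rintro ⟨y, hy⟩ h
      apply Subgroup.mem_subgroupOf.mpr
      apply hstab y hy
      rcases h with h | h
      · have h1 := congrArg Subtype.val h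
        have h2 : y * c * y⁻¹ = c := by simpa using h1
        rw [h2]
        exact hcR
      · have h1 := congrArg Subtype.val h
        have h2 : y * c * y⁻¹ = c⁻¹ := by simpa using h1
        rw [h2]
        exact R.inv_mem hcR
  apply hD.count
  intro h
  apply hQtop
  apply le_antisymm _ hQN
  exact Subgroup.subgroupOf_eq_top.mp h

end TD

end Cfsg.Agent.Lib.GL2.McKayA
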