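import Cfsg.Agent.Lib.GL2.McKayT
import Cfsg.Agent.Lib.GL2.Torus2
import Cfsg.Agent.Lib.Classical.SL2Tori

/-!
# The split and non-split tori of `SL₂(q)`, `q` odd, as abstract tori
-/

set_option autoImplicit false
set_option linter.unusedSectionVars false

namespace Cfsg.Agent.Lib.GL2.McKayA

open Cfsg Matrix
open Cfsg.Agent.Lib.GL2.SL2 Cfsg.Agent.Lib.GL2.SL2Classes Cfsg.Agent.Lib.GL2.SL2Values
open Cfsg.Agent.Lib.GL2.Torus
open Cfsg.Agent.Lib.Classical.SL2Tori
open QuadraticAlgebra Cfsg.Agent.Lib.Classical.QuadExt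

variable {F : Type*} [Field F] [Fintype F] [DecidableEq F]

lemma sq_one_cases (hodd : Odd (Fintype.card F)) {g : SL2 F} (h : g * g = 1) : g = 1 ∨ g = zz := by
  have h2 := two_ne_zero_of_odd hodd
  have hd := det_eq g
  have e00 := congrArg (fun x : SL2 F => (x : Matrix (Fin 2) (Fin 2) F) 0 0) h
  have e01 := congrArg (fun x : SL2 F => (x : Matrix (Fin 2) (Fin 2) F) 0 1) h
  have e10 := congrArg (fun x : SL2 F => (x : Matrix (Fin 2) (Fin 2) F) 1 0) h
  have e11 := congrArg (fun x : SL2 F => (x : Matrix (Fin 2) (Fin 2) F) 1 1) h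
  simp only [mul_entries] at e00 e01 e10 e11
  simp at e00 e01 e10 e11
  set A := (g : Matrix (Fin 2) (Fin 2) F) 0 0 with hA
  set B := (g : Matrix (Fin 2) (Fin 2) F) 0 1 with hB
  set C := (g : Matrix (Fin 2) (Fin 2) F) 1 0 with hC
  set D := (g : Matrix (Fin 2) (Fin 2) F) 1 1 with hD
  have htr : A + D ≠ 0 := by
    intro h0
    have hDe : D = -A := by linear_combination h0
    rw [hDe] at hd
    apply h2
    linear_combination -hd - e00
  have hB0 : B = 0 := by
    have : B * (A + D) = 0 := by linear_combination e01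
    exact (mul_eq_zero.mp this).resolve_right htr
  have hC0 : C = 0 := by
    have : C * (A + D) = 0 := by linear_combination e10
    exact (mul_eq_zero.mp this).resolve_right htr
  rw [hB0] at hd e00 e11
  have hA2 : (A - 1) * (A + 1) = 0 := by linear_combination e00
  rcases mul_eq_zero.mp hA2 with h3 | h3
  · left
    have hA1 : A = 1 := sub_eq_zero.mp h3
    have hD1 : D = 1 := by
      rw [hA1] at hd
      linear_combination hd
    apply ext_sl <;> simp [← hA, ← hB, ← hC, ← hD, hA1, hB0, hC0, hD1]
  · right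
    have hA1 : A = -1 := by linear_combination h3
    have hD1 : D = -1 := by
      rw [hA1] at hd
      linear_combination -hd
    apply ext_sl <;> simp [← hA, ← hB, ← hC, ← hD, hA1, hB0, hC0, hD1, coe_zz]

section Split

lemma coe_diagHom (x : Fˣ) : ((diagHom x : SL2 F) : Matrix (Fin 2) (Fin 2) F) =
    !![(x : F), 0; 0, ((x⁻¹ : Fˣ) : F)] := rfl

/-- The split torus is an abstract torus. -/
theorem td_split (hodd : Odd (Fintype.card F)) :
    TD (zz : SL2 F) ((diagHom : Fˣ →* SL2 F).range) (weylS : SL2 F) := by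
  refine ⟨fun g => (zz_comm g).symm, zz_mul_zz, zz_ne_one hodd, fun g h => sq_one_cases hodd h,
    isCyclic_of_surjective (diagHom : Fˣ →* SL2 F).rangeRestrict (MonoidHom.rangeRestrict_surjective _),
    ?_, ?_, ?_, ?_, ?_⟩
  · refine ⟨-1, ?_⟩
    apply ext_sl <;> simp [coe_diagHom, coe_zz]
  · apply ext_sl <;> simp [mul_entries, coe_zz]
  · rintro t ⟨x, rfl⟩
    exact weylS_conj x
  · rintro ⟨x, hx⟩
    have h1 := congrArg (fun g : SL2 F => (g : Matrix (Fin 2) (Fin 2) F) 0 1) hx
    simp [coe_diagHom] at h1
  · rintro s ⟨x, rfl⟩ hss g ⟨y, hy⟩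
    have hx0 : (x : F) ≠ 0 := x.ne_zero
    have hxx : (x : F) * x ≠ 1 := by
      intro h
      apply hss
      apply ext_sl
      · simpa [mul_entries, coe_diagHom] using h
      · simp [mul_entries, coe_diagHom]
      · simp [mul_entries, coe_diagHom]
      · simp [mul_entries, coe_diagHom]
        have : ((x : F)⁻¹) * (x : F)⁻¹ = ((x : F) * x)⁻¹ := by
          field_simp
        rw [this, h]
        simp
    have e : diagHom y * g = g * diagHom x := by
      rw [hy]
      group
    have e00 := congrArg (fun x : SL2 F => (x : Matrix (Fin 2) (Fin 2) F) 0 0) e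
    have e01 := congrArg (fun x : SL2 F => (x : Matrix (Fin 2) (Fin 2) F) 0 1) e
    have e10 := congrArg (fun x : SL2 F => (x : Matrix (Fin 2) (Fin 2) F) 1 0) e
    have e11 := congrArg (fun x : SL2 F => (x : Matrix (Fin 2) (Fin 2) F) 1 1) e
    simp only [mul_entries, coe_diagHom] at e00 e01 e10 e11
    simp at e00 e01 e10 e11
    have hd := det_eq g
    set p := (g : Matrix (Fin 2) (Fin 2) F) 0 0 with hp
    set q := (g : Matrix (Fin 2) (Fin 2) F) 0 1 with hq
    set r := (g : Matrix (Fin 2) (Fin 2) F) 1 0 with hr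
    set t := (g : Matrix (Fin 2) (Fin 2) F) 1 1 with ht
    have hy0 : (y : F) ≠ 0 := y.ne_zero
    by_cases hp0 : p = 0
    · -- `g` is antidiagonal
      right
      have hqr : q * r = -1 := by
        rw [hp0] at hd
        linear_combination -hd
      have hq0 : q ≠ 0 := by
        intro h
        rw [h] at hqr
        simp at hqr
      have hr0 : r ≠ 0 := by
        intro h
        rw [h] at hqr
        simp at hqr
      have hyx : (y : F) = (x : F)⁻¹ := by
        have : (y : F) * q = q * (x : F)⁻¹ := by
          simpa using e01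
        have h3 : q * (y : F) = q * (x : F)⁻¹ := by rw [← this]; ring
        exact mul_left_cancel₀ hq0 h3
      have ht0 : t = 0 := by
        have h1 : (y : F)⁻¹ * t = t * (x : F)⁻¹ := by simpa using e11
        rw [hyx, inv_inv] at h1
        have h2 : t * ((x : F) - (x : F)⁻¹) = 0 := by linear_combination h1
        rcases mul_eq_zero.mp h2 with h3 | h3
        · exact h3
        · exfalso
          apply hxx
          have h4 : (x : F) = (x : F)⁻¹ := sub_eq_zero.mp h3
          calc (x : F) * x = (x : F) * (x : F)⁻¹ := by rw [← h4]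
            _ = 1 := mul_inv_cancel₀ hx0
      let u : Fˣ := Units.mk0 q hq0
      refine ⟨u, ?_⟩
      rw [eq_mul_inv_iff_mul_eq]
      apply ext_sl
      · simp [u, coe_diagHom, mul_entries, ← hp, hp0]
      · simp [u, coe_diagHom, mul_entries, ← hq]
      · simp only [mul_entries, coe_diagHom]
        simp [u, ← hr]
        field_simp
        linear_combination -hqr
      · simp [u, coe_diagHom, mul_entries, ← ht, ht0]
    · -- `g` is diagonal
      left
      have hyx : (y : F) = x := by
        have h1 : (y : F) * p = p * x := by simpa using e00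
        have h3 : p * (y : F) = p * x := by rw [← h1]; ring
        exact mul_left_cancel₀ hp0 h3
      have hne : (x : F) - (x : F)⁻¹ ≠ 0 := by
        intro h3
        apply hxx
        have h4 : (x : F) = (x : F)⁻¹ := sub_eq_zero.mp h3
        calc (x : F) * x = (x : F) * (x : F)⁻¹ := by rw [← h4]
          _ = 1 := mul_inv_cancel₀ hx0
      have hq0 : q = 0 := by
        have h1 : (y : F) * q = q * (x : F)⁻¹ := by simpa using e01
        rw [hyx] at h1
        have h2 : q * ((x : F) - (x : F)⁻¹) = 0 := by linear_combination h1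
        exact (mul_eq_zero.mp h2).resolve_right hne
      have hr0 : r = 0 := by
        have h1 : (y : F)⁻¹ * r = r * (x : F) := by simpa using e10
        rw [hyx] at h1
        have h2 : r * ((x : F) - (x : F)⁻¹) = 0 := by linear_combination -h1
        exact (mul_eq_zero.mp h2).resolve_right hne
      have ht1 : t = p⁻¹ := by
        rw [hq0] at hd
        have : p * t = 1 := by linear_combination hd
        exact eq_inv_of_mul_eq_one_right this
      let u : Fˣ := Units.mk0 p hp0
      refine ⟨u, ?_⟩
      apply ext_sl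
      · simp [u, coe_diagHom, ← hp]
      · simp [u, coe_diagHom, ← hq, hq0]
      · simp [u, coe_diagHom, ← hr, hr0]
      · simp [u, coe_diagHom, ← ht, ht1]

lemma card_split : Nat.card ((diagHom : Fˣ →* SL2 F).range) = Fintype.card F - 1 := by
  rw [← Cfsg.Agent.Lib.Classical.SLBasic.card_units_eq]
  exact (Nat.card_congr (MonoidHom.ofInjective diagHom_inj).toEquiv).symm

end Split

section NonSplit

variable {a : F} [hab : Fact (∀ r : F, r ^ 2 ≠ a + 1 * r)]

lemma card_nonsplit : Nat.card ((regHom a 1 : normOne F a 1 →* SL2 F).range) = Fintype.card F + 1 := by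
  rw [← card_normOne (a := a) (b := 1)]
  exact (Nat.card_congr (MonoidHom.ofInjective regHom_inj).toEquiv).symm

lemma cyc_nonsplit : IsCyclic ((regHom a 1 : normOne F a 1 →* SL2 F).range) :=
  isCyclic_of_surjective (regHom a 1).rangeRestrict (MonoidHom.rangeRestrict_surjective _)

/-- The centralizer of a noncentral element of the non-split torus. -/
lemma centralizer_nonsplit (hodd : Odd (Fintype.card F)) {s g : SL2 F}
    (hs : s ∈ (regHom a 1 : normOne F a 1 →* SL2 F).range) (h1 : s ≠ 1) (h2 : s ≠ zz)
    (hc : g * s = s * g) : g ∈ (regHom a 1 : normOne F a 1 →* SL2 F).range := by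
  obtain ⟨u, rfl⟩ := hs
  set x := (u.1 : QuadraticAlgebra F a 1).re with hx
  set y := (u.1 : QuadraticAlgebra F a 1).im with hy
  have hcoe : ((regHom a 1 u : SL2 F) : Matrix (Fin 2) (Fin 2) F) = !![x, a * y; y, x + 1 * y] := rfl
  have hy0 : y ≠ 0 := by
    intro h0
    have hd := det_eq (regHom a 1 u : SL2 F)
    rw [hcoe, h0] at hd
    simp at hd
    have h5 : (x - 1) * (x + 1) = 0 := by linear_combination hd
    rcases mul_eq_zero.mp h5 with h6 | h6
    · apply h1
      have e : x = 1 := sub_eq_zero.mp h6
      apply ext_sl <;> simp [hcoe, e, h0]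
    · apply h2
      have e : x = -1 := by linear_combination h6
      apply ext_sl <;> simp [hcoe, e, h0, coe_zz]
  have e00 := congrArg (fun z : SL2 F => (z : Matrix (Fin 2) (Fin 2) F) 0 0) hc
  have e10 := congrArg (fun z : SL2 F => (z : Matrix (Fin 2) (Fin 2) F) 1 0) hc
  simp only [mul_entries, hcoe] at e00 e10
  simp at e00 e10
  set p := (g : Matrix (Fin 2) (Fin 2) F) 0 0 with hp
  set q := (g : Matrix (Fin 2) (Fin 2) F) 0 1 with hq
  set r := (g : Matrix (Fin 2) (Fin 2) F) 1 0 with hr
  set t := (g : Matrix (Fin 2) (Fin 2) F) 1 1 with ht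
  have hq' : q = a * r := by
    have : y * (q - a * r) = 0 := by linear_combination e00
    have h3 := (mul_eq_zero.mp this).resolve_left hy0
    exact sub_eq_zero.mp h3
  have ht' : t = p + 1 * r := by
    have : y * (t - (p + 1 * r)) = 0 := by linear_combination e10
    have h3 := (mul_eq_zero.mp this).resolve_left hy0
    exact sub_eq_zero.mp h3
  let v : QuadraticAlgebra F a 1 := ⟨p, r⟩
  have hgv : (g : Matrix (Fin 2) (Fin 2) F) = regMat v := by
    ext i j
    fin_cases i <;> fin_cases j
    · simp [regMat, v, ← hp]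
    · simp [regMat, v, ← hq, hq']
    · simp [regMat, v, ← hr]
    · simp [regMat, v, ← ht, ht']
  have hnorm : norm v = 1 := by
    rw [← regMat_det, ← hgv]
    exact g.2
  have hv0 : v ≠ 0 := by
    intro h
    rw [h] at hnorm
    simp [QuadraticAlgebra.norm_def] at hnorm
  let u' : (QuadraticAlgebra F a 1)ˣ := Units.mk0 v hv0
  have hu' : u' ∈ normOne F a 1 := (mem_normOne_iff u').mpr hnorm
  refine ⟨⟨u', hu'⟩, ?_⟩
  apply Subtype.ext
  rw [hgv]
  rfl

/-- The non-split torus is an abstract torus. -/
theorem td_nonsplit (hodd : Odd (Fintype.card F)) {v : QuadraticAlgebra F a 1} (hv : norm v = -1) :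
    TD (zz : SL2 F) ((regHom a 1 : normOne F a 1 →* SL2 F).range) (weylT a 1 v hv) := by
  set C := (regHom a 1 : normOne F a 1 →* SL2 F).range with hC
  have hcyc : IsCyclic C := cyc_nonsplit
  have hcard : Nat.card C = Fintype.card F + 1 := card_nonsplit
  have hinv : ∀ t ∈ C, weylT a 1 v hv * t * (weylT a 1 v hv)⁻¹ = t⁻¹ := by
    rintro t ⟨u, rfl⟩
    exact weylT_conj v hv u
  refine ⟨fun g => (zz_comm g).symm, zz_mul_zz, zz_ne_one hodd, fun g h => sq_one_cases hodd h,
    hcyc, zz_mem C hcard hodd, ?_, hinv, ?_, ?_⟩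
  · have h1 := weylT_sq v hv
    rw [sq] at h1
    rw [h1]
    apply ext_sl <;> simp [coe_zz]
  · intro hw
    obtain ⟨g₀, hg₀⟩ := IsCyclic.exists_generator (α := C)
    have h1 := hinv _ g₀.2
    rw [comm_mem C hcyc hw g₀.2] at h1
    have h2 : (g₀ : SL2 F) = (g₀ : SL2 F)⁻¹ := by
      rw [← h1]
      group
    have h3 : (g₀ : SL2 F) * g₀ = 1 := by
      nth_rw 1 [h2]
      group
    have h4 : orderOf g₀ ∣ 2 := by
      apply orderOf_dvd_of_pow_eq_one
      apply Subtype.ext
      simpa [sq] using h3
    rw [orderOf_eq_card_of_forall_mem_zpowers hg₀, hcard] at h4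
    have h5 := Nat.le_of_dvd (by norm_num) h4
    have h6 : 1 < Fintype.card F := Fintype.one_lt_card
    obtain ⟨k, hk⟩ := hodd
    omega
  · intro s hs hss g hg
    have hs1 : s ≠ 1 := by
      rintro rfl
      exact hss (by simp)
    have hsz : s ≠ zz := by
      rintro rfl
      exact hss zz_mul_zz
    have hne : NE s := by
      rcases mem_cases C hcard hodd hs with h | h | h
      · exact h
      · exact absurd h hs1
      · exact absurd h hsz
    have htr : tr (g * s * g⁻¹) = tr s := tr_conj s g
    rcases eq_or_eq_inv C hcyc hcard hodd hs hg hne htr with h | h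
    · left
      apply centralizer_nonsplit hodd hs hs1 hsz
      rw [mul_inv_eq_iff_eq_mul] at h
      exact h
    · right
      -- `w⁻¹ g` centralizes `s`
      set w := weylT a 1 v hv with hw
      have h1 : (w⁻¹ * g) * s = s * (w⁻¹ * g) := by
        have h2 : g * s = s⁻¹ * g := by
          rw [mul_inv_eq_iff_eq_mul] at h
          exact h
        have h3 : w * s = s⁻¹ * w := by
          have := hinv s hs
          rw [mul_inv_eq_iff_eq_mul] at this
          exact this
        have h4 : w⁻¹ * s⁻¹ = s * w⁻¹ := by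
          rw [inv_mul_eq_iff_eq_mul, ← mul_assoc, h3]
          group
        rw [mul_assoc, h2, ← mul_assoc, h4, mul_assoc]
      have h2 := centralizer_nonsplit hodd hs hs1 hsz h1
      have e : g * w⁻¹ = w * (w⁻¹ * g) * w⁻¹ := by group
      rw [e, hinv _ h2]
      exact C.inv_mem h2

end NonSplit

end Cfsg.Agent.Lib.GL2.McKayA
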